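import Mathlib
import Cfsg.Agent.Lib.Classical.Herm.HermOnb
import Cfsg.Agent.Lib.Classical.Herm.GU
import Cfsg.Agent.Lib.Classical.Symp.SpGL

/-!
# Centralizer of a fixed-point-free element of order three in `Sp_{2m}(q)`, `q ≡ 2 (mod 3)`

The element `x` makes the natural module a vector space over the field `K = F(ζ)` with `q²` elements, carrying the
hermitian form `h(u, v) = B(x u, v) - ζ² B(u, v)`. The centralizer of `x` in `Sp` is the unitary group of `h`.
-/

set_option autoImplicit false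
set_option linter.unusedSectionVars false
set_option linter.unusedVariables false

open scoped Matrix
open Cfsg Module Matrix
open Cfsg.Agent.Lib.Classical.Herm.Basic Cfsg.Agent.Lib.Classical.Herm.GU
open Cfsg.Agent.Lib.Classical.Herm.HermOnb Cfsg.Agent.Lib.Classical.Symp.Basic
open Cfsg.Agent.Lib.Classical.Symp.SpGL

namespace Cfsg.Agent.Lib.Classical.Symp.CentOrderThree

section Abstract

variable {F K : Type*} [Field F] [Fintype F] [Field K] [Fintype K] [Algebra F K] {q m : ℕ}

/-- The data of the quadratic extension. -/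
structure Ext (F K : Type*) [Field F] [Field K] [Algebra F K] (q : ℕ) (ζ : K) : Prop where
  rel : ζ ^ 2 + ζ + 1 = 0
  span : ∀ c : K, ∃ a b : F, c = algebraMap F K a + algebraMap F K b * ζ
  indep : ∀ a b : F, algebraMap F K a + algebraMap F K b * ζ = 0 → a = 0 ∧ b = 0
  frob : ζ ^ q = ζ ^ 2
  frobF : ∀ a : F, algebraMap F K a ^ q = algebraMap F K a

variable {ζ : K} (hE : Ext F K q ζ) (hK : Fintype.card K = q ^ 2)
variable {X : Matrix (Fin m ⊕ Fin m) (Fin m ⊕ Fin m) F}

/-- The hermitian form. -/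
noncomputable def hForm (ζ : K) (X : Matrix (Fin m ⊕ Fin m) (Fin m ⊕ Fin m) F) (u v : Fin m ⊕ Fin m → F) : K :=
  algebraMap F K (sympForm m F (X *ᵥ u) v) - ζ ^ 2 * algebraMap F K (sympForm m F u v)

/-- The module structure. -/
@[reducible] noncomputable def modK (ρ : K →ₐ[F] Matrix (Fin m ⊕ Fin m) (Fin m ⊕ Fin m) F) : Module K (Fin m ⊕ Fin m → F) :=
  Module.compHom _ ((Matrix.toLinAlgEquiv' : _ ≃ₐ[F] Module.End F (Fin m ⊕ Fin m → F)).toAlgHom.comp ρ).toRingHom

section Form

variable (hX3 : X ^ 2 + X + 1 = 0) (hXs : ∀ u v : Fin m ⊕ Fin m → F, sympForm m F (X *ᵥ u) (X *ᵥ v) = sympForm m F u v)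

theorem sympForm_add_left' (u u' v : Fin m ⊕ Fin m → F) : sympForm m F (u + u') v = sympForm m F u v + sympForm m F u' v :=
  (sympBilin m F).map_add₂ u u' v

theorem sympForm_smul_left' (a : F) (u v : Fin m ⊕ Fin m → F) : sympForm m F (a • u) v = a * sympForm m F u v :=
  (sympBilin m F).map_smul₂ a u v

theorem sympForm_neg_left' (u v : Fin m ⊕ Fin m → F) : sympForm m F (-u) v = - sympForm m F u v :=
  (sympBilin m F).map_neg₂ u v

include hX3 in
theorem X2_mulVec (u : Fin m ⊕ Fin m → F) : X *ᵥ (X *ᵥ u) = - (X *ᵥ u) - u := by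
  have h1 : X * X = -X - 1 := by
    have : X * X = X ^ 2 := (pow_two X).symm
    rw [this]
    linear_combination (norm := noncomm_ring) hX3
  rw [Matrix.mulVec_mulVec, h1, Matrix.sub_mulVec, Matrix.neg_mulVec, Matrix.one_mulVec]

include hX3 hXs in
theorem key_swap (u v : Fin m ⊕ Fin m → F) :
    sympForm m F (X *ᵥ v) u = sympForm m F (X *ᵥ u) v + sympForm m F u v := by
  have h1 := hXs (X *ᵥ u) v
  rw [X2_mulVec hX3, sub_eq_add_neg, sympForm_add_left', sympForm_neg_left', sympForm_neg_left'] at h1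
  rw [sympForm_swap (X *ᵥ v) u]
  linear_combination h1 + hXs u v

include hE hX3 in
theorem hForm_X_left (u v : Fin m ⊕ Fin m → F) : hForm ζ X (X *ᵥ u) v = ζ * hForm ζ X u v := by
  unfold hForm
  have h2 : sympForm m F (X *ᵥ (X *ᵥ u)) v = - sympForm m F (X *ᵥ u) v - sympForm m F u v := by
    rw [X2_mulVec hX3, sub_eq_add_neg, sympForm_add_left', sympForm_neg_left', sympForm_neg_left']
    ring
  rw [h2]
  simp only [map_sub, map_neg]
  have h1 := hE.rel
  linear_combination (- algebraMap F K (sympForm m F (X *ᵥ u) v) + (ζ - 1) * algebraMap F K (sympForm m F u v)) * h1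

theorem hForm_add_left (u u' v : Fin m ⊕ Fin m → F) : hForm ζ X (u + u') v = hForm ζ X u v + hForm ζ X u' v := by
  unfold hForm
  rw [Matrix.mulVec_add, sympForm_add_left', sympForm_add_left']
  simp only [map_add]
  ring

theorem hForm_smul_F (a : F) (u v : Fin m ⊕ Fin m → F) : hForm ζ X (a • u) v = algebraMap F K a * hForm ζ X u v := by
  unfold hForm
  rw [Matrix.mulVec_smul, sympForm_smul_left', sympForm_smul_left']
  simp only [map_mul]
  ring

/-- The form in coordinates `1, ζ`. -/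
theorem hForm_coord (h1 : ζ ^ 2 + ζ + 1 = 0) (u v : Fin m ⊕ Fin m → F) :
    hForm ζ X u v = algebraMap F K (sympForm m F (X *ᵥ u) v + sympForm m F u v) + algebraMap F K (sympForm m F u v) * ζ := by
  unfold hForm
  simp only [map_add]
  linear_combination - algebraMap F K (sympForm m F u v) * h1

include hE hX3 in
theorem hForm_smul_left (ρ : K →ₐ[F] Matrix (Fin m ⊕ Fin m) (Fin m ⊕ Fin m) F) (hρ : ρ ζ = X) (c : K) (u v : Fin m ⊕ Fin m → F) :
    hForm ζ X (ρ c *ᵥ u) v = c * hForm ζ X u v := by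
  obtain ⟨a, b, rfl⟩ := hE.span c
  have h1 : ρ (algebraMap F K a + algebraMap F K b * ζ) = a • 1 + b • X := by
    rw [map_add, map_mul, hρ, AlgHom.commutes, AlgHom.commutes]
    simp [Algebra.algebraMap_eq_smul_one]
  rw [h1, Matrix.add_mulVec, Matrix.smul_mulVec, Matrix.smul_mulVec, Matrix.one_mulVec, hForm_add_left, hForm_smul_F,
    hForm_smul_F, hForm_X_left hE hX3]
  ring

include hE hK hX3 hXs in
theorem hForm_herm (u v : Fin m ⊕ Fin m → F) : hForm ζ X v u = hForm ζ X u v ^ q := by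
  have h1 := hE.rel
  have h3 : ζ ^ 3 = 1 := by linear_combination (ζ - 1) * h1
  have e1 : (ζ ^ 2) ^ q = ζ := by
    rw [← pow_mul, mul_comm, pow_mul, hE.frob, ← pow_mul]
    calc ζ ^ (2 * 2) = ζ ^ 3 * ζ := by ring
      _ = ζ := by rw [h3, one_mul]
  have e2 : (hForm ζ X u v) ^ q = algebraMap F K (sympForm m F (X *ᵥ u) v) - ζ * algebraMap F K (sympForm m F u v) := by
    unfold hForm
    rw [pow_q_sub hK, hE.frobF, mul_pow, hE.frobF, e1]
  rw [e2]
  unfold hForm
  rw [key_swap hX3 hXs u v, sympForm_swap v u]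
  simp only [map_add, map_neg]
  linear_combination algebraMap F K (sympForm m F u v) * h1

include hE in
theorem hForm_nondeg (x : Fin m ⊕ Fin m → F) (h : ∀ y, hForm ζ X x y = 0) : x = 0 := by
  apply (sympBilin_nondegenerate (m := m) (F := F)).1
  intro y
  have h1 := h y
  rw [hForm_coord hE.rel] at h1
  exact (hE.indep _ _ h1).2

include hE in
/-- An additive map preserving the form preserves `B`. -/
theorem sympForm_of_hForm {u v u' v' : Fin m ⊕ Fin m → F} (h : hForm ζ X u v = hForm ζ X u' v') :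
    sympForm m F u v = sympForm m F u' v' := by
  rw [hForm_coord hE.rel, hForm_coord hE.rel] at h
  have h1 : algebraMap F K (sympForm m F (X *ᵥ u) v + sympForm m F u v - (sympForm m F (X *ᵥ u') v' + sympForm m F u' v')) +
      algebraMap F K (sympForm m F u v - sympForm m F u' v') * ζ = 0 := by
    simp only [map_add, map_sub] at h ⊢
    linear_combination h
  exact sub_eq_zero.1 (hE.indep _ _ h1).2

end Form

section Main

variable (ρ : K →ₐ[F] Matrix (Fin m ⊕ Fin m) (Fin m ⊕ Fin m) F) (hρ : ρ ζ = X)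

include hE hK in
/-- `V` has dimension `m` over `K`. -/
theorem finrank_modK (hFq : Fintype.card F = q) : @Module.finrank K (Fin m ⊕ Fin m → F) _ _ (modK ρ) = m := by
  let _ := modK ρ
  have : Module.Finite K (Fin m ⊕ Fin m → F) := Module.Finite.of_finite
  have h1 := Module.card_eq_pow_finrank (K := K) (V := Fin m ⊕ Fin m → F)
  rw [Fintype.card_fun, Fintype.card_sum, Fintype.card_fin, hFq, hK, ← pow_mul] at h1
  have hq : 2 ≤ q := by
    rw [← hFq]
    exact Fintype.one_lt_card
  have h2 := Nat.pow_right_injective hq h1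
  omega

theorem smul_modK (c : K) (v : Fin m ⊕ Fin m → F) : @HSMul.hSMul K _ _ (@instHSMul _ _ (modK ρ).toSMul) c v = ρ c *ᵥ v := rfl

include hE hK hρ in
/-- The centralizer has the order of the unitary group. -/
theorem card_centralizer (hFq : Fintype.card F = q) (hX3 : X ^ 2 + X + 1 = 0) (x : Matrix.symplecticGroup (Fin m) F)
    (hx : (x : Matrix (Fin m ⊕ Fin m) (Fin m ⊕ Fin m) F) = X) :
    Nat.card ↥(Subgroup.centralizer ({x} : Set ↥(Matrix.symplecticGroup (Fin m) F))) = Nat.card (GU m K q) := by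
  classical
  have hXs : ∀ u v : Fin m ⊕ Fin m → F, sympForm m F (X *ᵥ u) (X *ᵥ v) = sympForm m F u v := by
    rw [← hx]
    exact mem_symplecticGroup_iff_forall.1 x.2
  let _ := modK ρ
  have hsmul : ∀ (c : K) (v : Fin m ⊕ Fin m → F), c • v = ρ c *ᵥ v := fun _ _ => rfl
  have : Module.Finite K (Fin m ⊕ Fin m → F) := Module.Finite.of_finite
  have hH : IsHerm q (hForm ζ X : (Fin m ⊕ Fin m → F) → (Fin m ⊕ Fin m → F) → K) :=
    ⟨hForm_add_left, fun c u v => hForm_smul_left hE hX3 ρ hρ c u v, hForm_herm hE hK hX3 hXs, hForm_nondeg hE⟩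
  obtain ⟨Φ, hΦ⟩ := exists_isometry hK m (Fin m ⊕ Fin m → F) (hForm ζ X) hH (finrank_modK hE hK ρ hFq)
  -- the correspondence
  let C := ↥(Subgroup.centralizer ({x} : Set ↥(Matrix.symplecticGroup (Fin m) F)))
  let R : C → ↥(GU m K q) → Prop := fun g γ => ∀ u : Fin m → K,
    Φ (((γ : GL (Fin m) K) : Matrix (Fin m) (Fin m) K) *ᵥ u) =
      (((g : ↥(Matrix.symplecticGroup (Fin m) F)) : Matrix (Fin m ⊕ Fin m) (Fin m ⊕ Fin m) F) *ᵥ Φ u)
  have hcomm : ∀ g : C, ((g : ↥(Matrix.symplecticGroup (Fin m) F)) : Matrix (Fin m ⊕ Fin m) (Fin m ⊕ Fin m) F) * X =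
      X * ((g : ↥(Matrix.symplecticGroup (Fin m) F)) : Matrix (Fin m ⊕ Fin m) (Fin m ⊕ Fin m) F) := by
    intro g
    have h1 := Subgroup.mem_centralizer_iff.1 g.2 x (Set.mem_singleton x)
    have h2 := congrArg (fun z : ↥(Matrix.symplecticGroup (Fin m) F) => (z : Matrix (Fin m ⊕ Fin m) (Fin m ⊕ Fin m) F)) h1
    simp only [MulMemClass.coe_mul] at h2
    rw [hx] at h2
    exact h2.symm
  have hρc : ∀ c : K, ∃ a b : F, ρ c = a • 1 + b • X := by
    intro c
    obtain ⟨a, b, rfl⟩ := hE.span c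
    refine ⟨a, b, ?_⟩
    rw [map_add, map_mul, hρ, AlgHom.commutes, AlgHom.commutes]
    simp [Algebra.algebraMap_eq_smul_one]
  -- from `g` to `γ`
  have h1 : ∀ g : C, ∃ γ, R g γ := by
    intro g
    set G := ((g : ↥(Matrix.symplecticGroup (Fin m) F)) : Matrix (Fin m ⊕ Fin m) (Fin m ⊕ Fin m) F) with hG
    have hGs : ∀ u v : Fin m ⊕ Fin m → F, sympForm m F (G *ᵥ u) (G *ᵥ v) = sympForm m F u v :=
      mem_symplecticGroup_iff_forall.1 (g : ↥(Matrix.symplecticGroup (Fin m) F)).2
    have hGX : G * X = X * G := hcomm g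
    have hGh : ∀ u v : Fin m ⊕ Fin m → F, hForm ζ X (G *ᵥ u) (G *ᵥ v) = hForm ζ X u v := by
      intro u v
      unfold hForm
      rw [hGs, Matrix.mulVec_mulVec, ← hGX, ← Matrix.mulVec_mulVec, hGs]
    let gK : (Fin m ⊕ Fin m → F) →ₗ[K] (Fin m ⊕ Fin m → F) :=
      { toFun := fun v => G *ᵥ v
        map_add' := fun a b => Matrix.mulVec_add _ _ _
        map_smul' := fun c v => by
          simp only [RingHom.id_apply]
          rw [hsmul, hsmul, Matrix.mulVec_mulVec, Matrix.mulVec_mulVec]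
          obtain ⟨a, b, hab⟩ := hρc c
          rw [hab, Matrix.mul_add, Matrix.add_mul, Matrix.mul_smul, Matrix.mul_smul, Matrix.smul_mul, Matrix.smul_mul,
            hGX, mul_one, one_mul] }
    let M := LinearMap.toMatrix' (Φ.symm.toLinearMap ∘ₗ gK ∘ₗ Φ.toLinearMap)
    have hM : ∀ u, M *ᵥ u = Φ.symm (G *ᵥ Φ u) := by
      intro u
      rw [LinearMap.toMatrix'_mulVec]
      rfl
    have hP : Preserves q M := by
      intro u v
      rw [hM, hM, ← hΦ, ← hΦ, LinearEquiv.apply_symm_apply, LinearEquiv.apply_symm_apply, hGh]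
    refine ⟨⟨glOfPreserves hK M hP, hP⟩, fun u => ?_⟩
    change Φ (M *ᵥ u) = G *ᵥ Φ u
    rw [hM, LinearEquiv.apply_symm_apply]
  -- from `γ` to `g`
  have h2 : ∀ γ : ↥(GU m K q), ∃ g, R g γ := by
    intro γ
    set Γ := ((γ : GL (Fin m) K) : Matrix (Fin m) (Fin m) K) with hΓ
    have hΓP : Preserves q Γ := γ.2
    let L : (Fin m ⊕ Fin m → F) →ₗ[K] (Fin m ⊕ Fin m → F) :=
      Φ.toLinearMap ∘ₗ (Matrix.toLin' Γ) ∘ₗ Φ.symm.toLinearMap
    have hL : ∀ v, L v = Φ (Γ *ᵥ Φ.symm v) := fun v => rfl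
    have hsF : ∀ (a : F) (v : Fin m ⊕ Fin m → F), a • v = (algebraMap F K a) • v := by
      intro a v
      rw [hsmul, AlgHom.commutes, Algebra.algebraMap_eq_smul_one, Matrix.smul_mulVec, Matrix.one_mulVec]
    let LF : (Fin m ⊕ Fin m → F) →ₗ[F] (Fin m ⊕ Fin m → F) :=
      { toFun := fun v => L v
        map_add' := fun a b => map_add L a b
        map_smul' := fun a v => by
          simp only [RingHom.id_apply]
          rw [hsF, map_smul, ← hsF] }
    set G := LinearMap.toMatrix' LF with hG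
    have hGv : ∀ v, G *ᵥ v = L v := by
      intro v
      rw [hG, LinearMap.toMatrix'_mulVec]
      rfl
    have hLh : ∀ u v, hForm ζ X (L u) (L v) = hForm ζ X u v := by
      intro u v
      rw [hL, hL, hΦ, hΓP, ← hΦ, LinearEquiv.apply_symm_apply, LinearEquiv.apply_symm_apply]
    have hGs : G ∈ Matrix.symplecticGroup (Fin m) F := by
      rw [mem_symplecticGroup_iff_forall]
      intro u v
      rw [hGv, hGv]
      exact sympForm_of_hForm hE (hLh u v)
    have hGX : G * X = X * G := by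
      apply Matrix.ext_iff_mulVec.mpr
      intro v
      rw [← Matrix.mulVec_mulVec, ← Matrix.mulVec_mulVec, hGv, hGv]
      have : X *ᵥ v = ζ • v := by rw [hsmul, hρ]
      rw [this, map_smul, hsmul, hρ]
    refine ⟨⟨⟨G, hGs⟩, ?_⟩, fun u => ?_⟩
    · rw [Subgroup.mem_centralizer_iff]
      intro y hy
      have hy' : y = x := hy
      rw [hy']
      apply Subtype.ext
      change (x : Matrix (Fin m ⊕ Fin m) (Fin m ⊕ Fin m) F) * G = G * x
      rw [hx, hGX]
    · change Φ (Γ *ᵥ u) = G *ᵥ Φ u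
      rw [hGv, hL, LinearEquiv.symm_apply_apply]
  -- uniqueness
  have huγ : ∀ g γ γ', R g γ → R g γ' → γ = γ' := by
    intro g γ γ' h h'
    apply Subtype.ext
    apply Units.ext
    apply Matrix.ext_iff_mulVec.mpr
    intro u
    apply Φ.injective
    rw [h u, h' u]
  have hug : ∀ g g' γ, R g γ → R g' γ → g = g' := by
    intro g g' γ h h'
    apply Subtype.ext
    apply Subtype.ext
    apply Matrix.ext_iff_mulVec.mpr
    intro v
    have := (h (Φ.symm v)).symm.trans (h' (Φ.symm v))
    rwa [LinearEquiv.apply_symm_apply] at this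
  choose f hf using h1
  have hb : Function.Bijective f := by
    constructor
    · intro g g' h
      refine hug g g' (f g) (hf g) ?_
      rw [h]
      exact hf g'
    · intro γ
      obtain ⟨g, hg⟩ := h2 γ
      exact ⟨g, huγ g _ _ (hf g) hg⟩
  exact Nat.card_congr (Equiv.ofBijective f hb)

end Main

end Abstract

/-- The concrete quadratic extension. -/
noncomputable abbrev f3 (F : Type*) [Field F] : Polynomial F := Polynomial.X ^ 2 + Polynomial.X + 1

theorem f3_monic (F : Type*) [Field F] : (f3 F).Monic := by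
  unfold f3
  monicity!

theorem f3_natDegree (F : Type*) [Field F] : (f3 F).natDegree = 2 := by
  unfold f3
  compute_degree!

theorem f3_irreducible {F : Type*} [Field F] [Fintype F] (hq : Fintype.card F % 3 = 2) : Irreducible (f3 F) := by
  apply Polynomial.irreducible_of_degree_le_three_of_not_isRoot
  · rw [f3_natDegree]
    simp
  · intro a ha
    simp only [f3, Polynomial.IsRoot.def, Polynomial.eval_add, Polynomial.eval_pow, Polynomial.eval_X, Polynomial.eval_one] at ha
    have ha3 : a ^ 3 = 1 := by linear_combination (a - 1) * ha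
    have ha0 : a ≠ 0 := by
      rintro rfl
      simp at ha
    have h1 := FiniteField.pow_card_sub_one_eq_one a ha0
    obtain ⟨t, ht⟩ : ∃ t, Fintype.card F - 1 = 3 * t + 1 := by
      have h2 : 1 < Fintype.card F := Fintype.one_lt_card
      exact ⟨(Fintype.card F - 1) / 3, by omega⟩
    rw [ht, pow_succ, pow_mul, ha3, one_pow, one_mul] at h1
    subst h1
    obtain ⟨p, hp⟩ := CharP.exists F
    have h3 : ((3 : ℕ) : F) = 0 := by
      push_cast
      linear_combination ha
    have h4 := (CharP.cast_eq_zero_iff F p 3).1 h3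
    have : Fact p.Prime := ⟨CharP.char_is_prime F p⟩
    have hp3 : p = 3 := (Nat.prime_dvd_prime_iff_eq (Fact.out) Nat.prime_three).1 h4
    subst hp3
    obtain ⟨n, hn, hc⟩ := FiniteField.card F 3
    rw [hc] at hq
    have h5 : 3 ∣ 3 ^ (n : ℕ) := dvd_pow_self 3 n.ne_zero
    omega

end Cfsg.Agent.Lib.Classical.Symp.CentOrderThree
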