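import Mathlib
import Cfsg.Agent.Lib.Classical.Symp.InvolChar2Mat
import Cfsg.Agent.Lib.Classical.Orth.Sum

/-!
# Realising the involution types of `Sp_{2m}` in characteristic two by block matrices
-/

set_option autoImplicit false

namespace Cfsg.Agent.Lib.Classical.Symp.InvolChar2Real

open Module Matrix Cfsg Cfsg.Agent.Lib.Classical.Symp.Basic Cfsg.Agent.Lib.Classical.Symp.InvolChar2
open Cfsg.Agent.Lib.Classical.Symp.InvolChar2Mat

variable {F : Type*} [Field F] {m : ℕ}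

/-- The block matrix `[[1, Γ], [0, 1]]`. -/
def blockA (Γ : Matrix (Fin m) (Fin m) F) : Matrix (Fin m ⊕ Fin m) (Fin m ⊕ Fin m) F :=
  fromBlocks 1 Γ 0 1

theorem blockA_mulVec_inl (Γ : Matrix (Fin m) (Fin m) F) (x : Fin m ⊕ Fin m → F) (i : Fin m) :
    (blockA Γ *ᵥ x) (Sum.inl i) = x (Sum.inl i) + (Γ *ᵥ (fun j => x (Sum.inr j))) i := by
  simp [blockA, mulVec, dotProduct, Fintype.sum_sum_type, Matrix.one_apply]

theorem blockA_mulVec_inr (Γ : Matrix (Fin m) (Fin m) F) (x : Fin m ⊕ Fin m → F) (i : Fin m) :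
    (blockA Γ *ᵥ x) (Sum.inr i) = x (Sum.inr i) := by
  simp [blockA, mulVec, dotProduct, Fintype.sum_sum_type, Matrix.one_apply]

theorem blockA_mem {Γ : Matrix (Fin m) (Fin m) F} (hΓ : Γᵀ = Γ) :
    blockA Γ ∈ symplecticGroup (Fin m) F := by
  rw [mem_symplecticGroup_iff_forall]
  intro u v
  rw [sympForm_apply, sympForm_apply]
  simp only [blockA_mulVec_inl, blockA_mulVec_inr, mul_add, add_mul, sub_eq_add_neg, neg_add]
  have h1 : ∑ i, (u (Sum.inr i) * (Γ *ᵥ fun j => v (Sum.inr j)) i) =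
      ∑ i, ((Γ *ᵥ fun j => u (Sum.inr j)) i * v (Sum.inr i)) := by
    have e1 : (fun j => u (Sum.inr j)) ⬝ᵥ (Γ *ᵥ fun j => v (Sum.inr j)) =
        (Γ *ᵥ fun j => u (Sum.inr j)) ⬝ᵥ (fun j => v (Sum.inr j)) := by
      rw [dotProduct_mulVec, ← mulVec_transpose, hΓ]
    simpa [dotProduct] using e1
  have h2 : ∀ i, u (Sum.inr i) * v (Sum.inl i) + u (Sum.inr i) * (Γ *ᵥ fun j => v (Sum.inr j)) i +
        (-(u (Sum.inl i) * v (Sum.inr i)) + -((Γ *ᵥ fun j => u (Sum.inr j)) i * v (Sum.inr i))) =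
      (u (Sum.inr i) * v (Sum.inl i) + -(u (Sum.inl i) * v (Sum.inr i))) +
        (u (Sum.inr i) * (Γ *ᵥ fun j => v (Sum.inr j)) i - (Γ *ᵥ fun j => u (Sum.inr j)) i * v (Sum.inr i)) := by
    intro i
    ring
  simp only [h2]
  rw [Finset.sum_add_distrib, Finset.sum_sub_distrib, h1, sub_self, add_zero]

variable [CharP F 2]

theorem blockA_sq (Γ : Matrix (Fin m) (Fin m) F) : blockA Γ * blockA Γ = 1 := by
  have h2 : (2 : F) = 0 := two_eq_zero' F
  have h3 : Γ + Γ = 0 := by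
    ext i j
    simp only [Matrix.add_apply, Matrix.zero_apply]
    rw [← two_mul, h2, zero_mul]
  simp only [blockA, fromBlocks_multiply]
  simp [h3, fromBlocks_one]

omit [CharP F 2] in
theorem rank_blockA (Γ : Matrix (Fin m) (Fin m) F) : (blockA Γ - 1).rank = Γ.rank := by
  classical
  have e : blockA Γ - 1 = (fromBlocks Γ 0 0 (0 : Matrix (Fin m) (Fin m) F)).submatrix (Equiv.refl _) (Equiv.sumComm _ _) := by
    ext i j
    rcases i with i | i <;> rcases j with j | j <;> simp [blockA, Matrix.one_apply, Equiv.sumComm]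
  rw [e, Matrix.rank_submatrix, Cfsg.Agent.Lib.Classical.Orth.Sum.rank_fromBlocks_zero]
  simp

omit [CharP F 2] in
/-- The form value `f(x, Ax)`. -/
theorem sympForm_blockA {Γ : Matrix (Fin m) (Fin m) F} (x : Fin m ⊕ Fin m → F) :
    sympForm m F x (blockA Γ *ᵥ x) =
      (fun j => x (Sum.inr j)) ⬝ᵥ (Γ *ᵥ fun j => x (Sum.inr j)) := by
  rw [sympForm_apply]
  simp only [blockA_mulVec_inl, blockA_mulVec_inr, dotProduct]
  refine Finset.sum_congr rfl fun i _ => ?_
  ring

theorem dot_self_eq_zero {Γ : Matrix (Fin m) (Fin m) F} (hΓ : Γᵀ = Γ) (hd : ∀ i, Γ i i = 0)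
    (y : Fin m → F) : y ⬝ᵥ (Γ *ᵥ y) = 0 := by
  have h2 : (2 : F) = 0 := two_eq_zero' F
  have e : y ⬝ᵥ (Γ *ᵥ y) = ∑ p : Fin m × Fin m, y p.1 * (Γ p.1 p.2 * y p.2) := by
    simp only [dotProduct, mulVec, Finset.mul_sum]
    rw [Fintype.sum_prod_type]
  rw [e]
  refine Finset.sum_involution (fun p _ => (p.2, p.1)) ?_ ?_ ?_ ?_
  · rintro ⟨i, j⟩ -
    have : Γ j i = Γ i j := by
      have := congrFun (congrFun hΓ i) j
      simpa [Matrix.transpose_apply] using this
    simp only [this]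
    have e2 : y i * (Γ i j * y j) + y j * (Γ i j * y i) = 2 * (y i * (Γ i j * y j)) := by ring
    rw [e2, h2, zero_mul]
  · rintro ⟨i, j⟩ - h1 h3
    have h4 : j = i := congrArg Prod.fst h3
    subst h4
    simp [hd] at h1
  · intro p _
    exact Finset.mem_univ _
  · rintro ⟨i, j⟩ -
    rfl

omit [CharP F 2] in
theorem rank_gamma (σ : Equiv.Perm (Fin m)) (s : ℕ) (hs : s ≤ m) :
    ((diagonal (fun i : Fin m => if (i : ℕ) < s then (1 : F) else 0)) * σ.permMatrix F).rank = s := by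
  classical
  have hdet : IsUnit (σ.permMatrix F).det := by
    rw [Matrix.det_permutation]
    rcases Int.units_eq_one_or (Equiv.Perm.sign σ) with h | h <;> simp [h]
  rw [Matrix.rank_mul_eq_left_of_isUnit_det _ _ hdet, Matrix.rank_diagonal]
  have : Fintype.card {i : Fin m // (if (i : ℕ) < s then (1 : F) else 0) ≠ 0} = Fintype.card (Fin s) := by
    apply Fintype.card_congr
    refine ⟨fun i => ⟨i.1, ?_⟩, fun i => ⟨⟨i.1, by omega⟩, ?_⟩, fun _ => rfl, fun _ => rfl⟩
    · by_contra hc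
      exact i.2 (by simp [hc])
    · simp
  rw [this, Fintype.card_fin]

omit [CharP F 2] in
theorem gamma_apply (σ : Equiv.Perm (Fin m)) (s : ℕ) (i j : Fin m) :
    ((diagonal (fun i : Fin m => if (i : ℕ) < s then (1 : F) else 0)) * σ.permMatrix F) i j =
      if (i : ℕ) < s ∧ σ i = j then 1 else 0 := by
  classical
  rw [Matrix.diagonal_mul, Equiv.Perm.permMatrix, PEquiv.toMatrix_apply]
  by_cases h : (i : ℕ) < s <;> by_cases h2 : σ i = j <;> simp [h, h2]

omit [CharP F 2] in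
theorem gamma_symm {σ : Equiv.Perm (Fin m)} {s : ℕ} (hσ : ∀ i, σ (σ i) = i)
    (hσs : ∀ i : Fin m, (i : ℕ) < s → ((σ i : Fin m) : ℕ) < s) :
    ((diagonal (fun i : Fin m => if (i : ℕ) < s then (1 : F) else 0)) * σ.permMatrix F)ᵀ =
      (diagonal (fun i : Fin m => if (i : ℕ) < s then (1 : F) else 0)) * σ.permMatrix F := by
  classical
  ext i j
  rw [Matrix.transpose_apply, gamma_apply, gamma_apply]
  have : ((j : ℕ) < s ∧ σ j = i) ↔ ((i : ℕ) < s ∧ σ i = j) := by
    constructor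
    · rintro ⟨h1, rfl⟩
      exact ⟨hσs _ h1, hσ j⟩
    · rintro ⟨h1, rfl⟩
      exact ⟨hσs _ h1, hσ i⟩
  simp only [this]

/-- A non-alternating involution of every rank `1 ≤ s ≤ m`. -/
theorem exists_invol_nonalt {s : ℕ} (h1 : 1 ≤ s) (hs : s ≤ m) :
    ∃ a : symplecticGroup (Fin m) F, (a : Matrix (Fin m ⊕ Fin m) (Fin m ⊕ Fin m) F) * a = 1 ∧
      ((a : Matrix (Fin m ⊕ Fin m) (Fin m ⊕ Fin m) F) - 1).rank = s ∧
      ¬ ∀ x, sympForm m F x ((a : Matrix (Fin m ⊕ Fin m) (Fin m ⊕ Fin m) F) *ᵥ x) = 0 := by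
  classical
  let Γ : Matrix (Fin m) (Fin m) F := (diagonal (fun i : Fin m => if (i : ℕ) < s then (1 : F) else 0)) * (1 : Equiv.Perm (Fin m)).permMatrix F
  have hΓ : Γᵀ = Γ := gamma_symm (fun _ => rfl) (fun _ h => h)
  refine ⟨⟨blockA Γ, blockA_mem hΓ⟩, blockA_sq Γ, ?_, ?_⟩
  · change (blockA Γ - 1).rank = s
    rw [rank_blockA]
    exact rank_gamma _ s hs
  · intro h
    let i0 : Fin m := ⟨0, by omega⟩
    have := h (Pi.single (Sum.inr i0) 1)
    change sympForm m F _ (blockA Γ *ᵥ _) = 0 at this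
    rw [sympForm_blockA] at this
    have e : (fun j => (Pi.single (Sum.inr i0) (1 : F) : Fin m ⊕ Fin m → F) (Sum.inr j)) = Pi.single i0 1 := by
      funext j
      by_cases hj : j = i0
      · subst hj
        simp
      · simp [Pi.single_apply, hj]
    rw [e, mulVec_single_one, single_one_dotProduct] at this
    have h3 : Γ i0 i0 = 1 := by
      simp only [Γ]
      rw [gamma_apply]
      simp [i0]
      omega
    simp only [Matrix.col_apply] at this
    rw [h3] at this
    exact one_ne_zero this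

/-- The involutive swap `i ↔ i + k` on `{0, ..., 2k-1}`. -/
def swapK (m k : ℕ) (hk : 2 * k ≤ m) : Equiv.Perm (Fin m) :=
  Function.Involutive.toPerm
    (fun i => ⟨if (i : ℕ) < k then i + k else if (i : ℕ) < 2 * k then i - k else i, by
      split_ifs <;> omega⟩)
    (by
      intro i
      apply Fin.ext
      simp only
      by_cases h1 : (i : ℕ) < k
      · have h2 : ¬ ((i : ℕ) + k < k) := by omega
        have h3 : (i : ℕ) + k < 2 * k := by omega
        simp [h1, h2, h3]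
      · by_cases h4 : (i : ℕ) < 2 * k
        · have h5 : (i : ℕ) - k < k := by omega
          simp only [h1, h4, h5, if_true, if_false]
          omega
        · simp [h1, h4])

theorem swapK_val (m k : ℕ) (hk : 2 * k ≤ m) (i : Fin m) :
    ((swapK m k hk i : Fin m) : ℕ) = if (i : ℕ) < k then i + k else if (i : ℕ) < 2 * k then i - k else i := rfl

/-- An alternating involution of every even rank `2k ≤ m`. -/
theorem exists_invol_alt {k : ℕ} (hk : 2 * k ≤ m) :
    ∃ a : symplecticGroup (Fin m) F, (a : Matrix (Fin m ⊕ Fin m) (Fin m ⊕ Fin m) F) * a = 1 ∧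
      ((a : Matrix (Fin m ⊕ Fin m) (Fin m ⊕ Fin m) F) - 1).rank = 2 * k ∧
      ∀ x, sympForm m F x ((a : Matrix (Fin m ⊕ Fin m) (Fin m ⊕ Fin m) F) *ᵥ x) = 0 := by
  classical
  let σ := swapK m k hk
  have hσ : ∀ i, σ (σ i) = i := fun i => (Function.Involutive.toPerm_involutive _) i
  have hσs : ∀ i : Fin m, (i : ℕ) < 2 * k → ((σ i : Fin m) : ℕ) < 2 * k := by
    intro i hi
    have := swapK_val m k hk i
    change ((σ i : Fin m) : ℕ) = _ at this
    rw [this]
    split_ifs <;> omega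
  let Γ : Matrix (Fin m) (Fin m) F := (diagonal (fun i : Fin m => if (i : ℕ) < 2 * k then (1 : F) else 0)) * σ.permMatrix F
  have hΓ : Γᵀ = Γ := gamma_symm hσ hσs
  have hd : ∀ i, Γ i i = 0 := by
    intro i
    simp only [Γ]
    rw [gamma_apply]
    rw [if_neg]
    rintro ⟨h1, h2⟩
    have := congrArg Fin.val h2
    have h3 := swapK_val m k hk i
    change ((σ i : Fin m) : ℕ) = _ at h3
    rw [h3] at this
    split_ifs at this <;> omega
  refine ⟨⟨blockA Γ, blockA_mem hΓ⟩, blockA_sq Γ, ?_, ?_⟩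
  · change (blockA Γ - 1).rank = 2 * k
    rw [rank_blockA]
    exact rank_gamma _ _ hk
  · intro x
    change sympForm m F x (blockA Γ *ᵥ x) = 0
    rw [sympForm_blockA]
    exact dot_self_eq_zero hΓ hd _

end Cfsg.Agent.Lib.Classical.Symp.InvolChar2Real
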