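import Mathlib
import Cfsg.Agent.Lib.Classical.Symp.SympBasis

/-!
# Hyperbolic bases adapted to an isometry whose square is scalar

If `x` is an isometry of a nondegenerate alternating form with `x^2 = z`, and every nonzero
`x`-space splits off an `x`-invariant hyperbolic plane of a prescribed shape, then the whole space
has a hyperbolic basis consisting of such planes.
-/

set_option autoImplicit false

namespace Cfsg.Agent.Lib.Classical.Symp.InvolSplit

open Matrix Cfsg Cfsg.Agent.Lib.Classical.Symp.Basic Cfsg.Agent.Lib.Classical.Symp.AltForm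
open Cfsg.Agent.Lib.Classical.Symp.Hyperbolic Cfsg.Agent.Lib.Classical.Symp.SympBasis

universe u

variable {F : Type*} [Field F]

/-- `perpPair` is invariant when the pair spans an invariant plane. -/
theorem perpPair_invariant {V : Type u} [AddCommGroup V] [Module F V]
    {B : LinearMap.BilinForm F V} {x : V →ₗ[F] V} (hiso : ∀ a b, B (x a) (x b) = B a b)
    {z : F} (hz : z ≠ 0) (hsq : ∀ a, x (x a) = z • a) {a b : V} {p q r s : F}
    (h1 : x a = p • a + q • b) (h2 : x b = r • a + s • b) {y : V} (hy : y ∈ perpPair B a b) :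
    x y ∈ perpPair B a b := by
  obtain ⟨hya, hyb⟩ := mem_perpPair.mp hy
  have key : ∀ w, B y (x w) = 0 → B (x y) w = 0 := by
    intro w hw
    have h3 : B (x y) (x (x w)) = 0 := by rw [hiso]; exact hw
    rw [hsq, map_smul, smul_eq_mul] at h3
    exact (mul_eq_zero.mp h3).resolve_left hz
  rw [mem_perpPair]
  constructor
  · apply key
    rw [h1]
    simp [hya, hyb]
  · apply key
    rw [h2]
    simp [hya, hyb]

/-- A hyperbolic family adapted to an isometry with scalar square. -/
theorem exists_family_adapted (z : F) (hz : z ≠ 0) (R : F → F → F → F → Prop)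
    (hsplit : ∀ (V : Type u) [AddCommGroup V] [Module F V] [FiniteDimensional F V]
      (B : LinearMap.BilinForm F V) (_ : B.IsAlt) (_ : B.Nondegenerate) (x : V →ₗ[F] V)
      (_ : ∀ a b, B (x a) (x b) = B a b) (_ : ∀ a, x (x a) = z • a) [Nontrivial V],
      ∃ a b : V, ∃ p q r s : F, B a b = 1 ∧ R p q r s ∧ x a = p • a + q • b ∧ x b = r • a + s • b)
    (k : ℕ) :
    ∀ (V : Type u) [AddCommGroup V] [Module F V] [FiniteDimensional F V]
      (B : LinearMap.BilinForm F V) (_ : B.IsAlt) (_ : B.Nondegenerate)
      (_ : Module.finrank F V = 2 * k) (x : V →ₗ[F] V)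
      (_ : ∀ a b, B (x a) (x b) = B a b) (_ : ∀ a, x (x a) = z • a),
      ∃ a b : Fin k → V, (∀ i j, B (a i) (a j) = 0) ∧ (∀ i j, B (b i) (b j) = 0) ∧
        (∀ i j, B (a i) (b j) = if i = j then 1 else 0) ∧
        ∀ i, ∃ p q r s : F, R p q r s ∧ x (a i) = p • a i + q • b i ∧
          x (b i) = r • a i + s • b i := by
  induction k with
  | zero =>
    intro V _ _ _ B _ _ _ x _ _
    exact ⟨fun i => i.elim0, fun i => i.elim0, fun i => i.elim0, fun i => i.elim0, fun i => i.elim0,
      fun i => i.elim0⟩
  | succ k ih =>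
    intro V _ _ _ B hA hB hdim x hiso hsq
    have hpos : 0 < Module.finrank F V := by omega
    haveI : Nontrivial V := Module.nontrivial_of_finrank_pos hpos
    obtain ⟨u, v, p, q, r, s, huv, hR, h1, h2⟩ := hsplit V B hA hB x hiso hsq
    have hfr := finrank_perpPair hA huv
    have hinv : ∀ y ∈ perpPair B u v, x y ∈ perpPair B u v :=
      fun y hy => perpPair_invariant hiso hz hsq h1 h2 hy
    let x' : perpPair B u v →ₗ[F] perpPair B u v := x.restrict hinv
    have hx' : ∀ y : perpPair B u v, ((x' y : perpPair B u v) : V) = x y := fun y => rfl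
    obtain ⟨a', b', h3, h4, h5, h6⟩ := ih (perpPair B u v) (B.restrict (perpPair B u v))
      (restrict_isAlt hA _) (restrict_nondegenerate hA huv hB) (by omega) x'
      (fun a b => hiso a b) (fun a => by
        apply Subtype.ext
        rw [hx', hx', hsq]
        rfl)
    have hm : ∀ y : perpPair B u v, B y u = 0 ∧ B y v = 0 := fun y => mem_perpPair.mp y.2
    have hm' : ∀ y : perpPair B u v, B u y = 0 ∧ B v y = 0 := fun y => by
      have h := hm y
      rw [alt_swap hA u, alt_swap hA v, h.1, h.2]
      simp
    refine ⟨Fin.cons u (fun i => (a' i : V)), Fin.cons v (fun i => (b' i : V)), ?_, ?_, ?_, ?_⟩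
    · intro i j
      induction i using Fin.cases with
      | zero =>
        induction j using Fin.cases with
        | zero => simpa using hA u
        | succ j => simpa using (hm' (a' j)).1
      | succ i =>
        induction j using Fin.cases with
        | zero => simpa using (hm (a' i)).1
        | succ j => simpa using h3 i j
    · intro i j
      induction i using Fin.cases with
      | zero =>
        induction j using Fin.cases with
        | zero => simpa using hA v
        | succ j => simpa using (hm' (b' j)).2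
      | succ i =>
        induction j using Fin.cases with
        | zero => simpa using (hm (b' i)).2
        | succ j => simpa using h4 i j
    · intro i j
      induction i using Fin.cases with
      | zero =>
        induction j using Fin.cases with
        | zero => simpa using huv
        | succ j =>
          have : (0 : Fin (k + 1)) ≠ j.succ := (Fin.succ_ne_zero j).symm
          simpa [this] using (hm' (b' j)).1
      | succ i =>
        induction j using Fin.cases with
        | zero =>
          have : i.succ ≠ (0 : Fin (k + 1)) := Fin.succ_ne_zero i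
          simpa [this] using (hm (a' i)).2
        | succ j =>
          have := h5 i j
          simpa [Fin.succ_inj] using this
    · intro i
      induction i using Fin.cases with
      | zero => exact ⟨p, q, r, s, hR, by simpa using h1, by simpa using h2⟩
      | succ i =>
        obtain ⟨p', q', r', s', hR', h7, h8⟩ := h6 i
        refine ⟨p', q', r', s', hR', ?_, ?_⟩
        · have h9 := congrArg Subtype.val h7
          rw [hx'] at h9
          simpa using h9
        · have h9 := congrArg Subtype.val h8
          rw [hx'] at h9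
          simpa using h9

/-- The splitting when `x^2 = 1`. -/
theorem split_plus (h2 : (2 : F) ≠ 0) (V : Type u) [AddCommGroup V] [Module F V]
    [FiniteDimensional F V] (B : LinearMap.BilinForm F V) (hA : B.IsAlt) (hB : B.Nondegenerate)
    (x : V →ₗ[F] V) (hiso : ∀ a b, B (x a) (x b) = B a b) (hsq : ∀ a, x (x a) = (1 : F) • a)
    [Nontrivial V] :
    ∃ a b : V, ∃ p q r s : F, B a b = 1 ∧ (p = s ∧ q = 0 ∧ r = 0) ∧
      x a = p • a + q • b ∧ x b = r • a + s • b := by
  have hsq' : ∀ a, x (x a) = a := fun a => by rw [hsq, one_smul]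
  -- an eigenvector
  obtain ⟨a, ε, ha0, hε, hxa⟩ : ∃ a : V, ∃ ε : F, a ≠ 0 ∧ ε * ε = 1 ∧ x a = ε • a := by
    obtain ⟨v, hv⟩ := exists_ne (0 : V)
    by_cases h : x v = v
    · exact ⟨v, 1, hv, by simp, by simpa using h⟩
    · refine ⟨v - x v, -1, sub_ne_zero.mpr (fun h' => h h'.symm), by simp, ?_⟩
      rw [map_sub, hsq']
      simp
  obtain ⟨y, hy⟩ : ∃ y, B a y ≠ 0 := by
    by_contra hcon
    push Not at hcon
    exact ha0 (hB.1 a hcon)
  have h3 : B a (x y) = ε * B a y := by
    have h4 : a = ε • x a := by
      rw [hxa, smul_smul, hε, one_smul]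
    conv_lhs => rw [h4]
    rw [LinearMap.map_smul₂, hiso, smul_eq_mul]
  set b₀ : V := y + ε • x y with hb₀
  have hb₀x : x b₀ = ε • b₀ := by
    rw [hb₀, map_add, map_smul, hsq', smul_add, smul_smul, hε, one_smul, add_comm]
  have hab₀ : B a b₀ = 2 * B a y := by
    rw [hb₀, map_add, map_smul, smul_eq_mul, h3, ← mul_assoc, hε]
    ring
  have hne : B a b₀ ≠ 0 := by
    rw [hab₀]
    exact mul_ne_zero h2 hy
  refine ⟨a, (B a b₀)⁻¹ • b₀, ε, 0, 0, ε, ?_, ⟨rfl, rfl, rfl⟩, by simpa using hxa, ?_⟩
  · rw [map_smul, smul_eq_mul, inv_mul_cancel₀ hne]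
  · rw [map_smul, hb₀x, smul_comm]
    simp

/-- The splitting when `x^2 = -1`. -/
theorem split_minus (h2 : (2 : F) ≠ 0) (V : Type u) [AddCommGroup V] [Module F V]
    [FiniteDimensional F V] (B : LinearMap.BilinForm F V) (hA : B.IsAlt) (hB : B.Nondegenerate)
    (x : V →ₗ[F] V) (hiso : ∀ a b, B (x a) (x b) = B a b) (hsq : ∀ a, x (x a) = (-1 : F) • a)
    [Nontrivial V] :
    ∃ a b : V, ∃ p q r s : F, B a b = 1 ∧ (p = 0 ∧ s = 0 ∧ q ≠ 0 ∧ r ≠ 0) ∧
      x a = p • a + q • b ∧ x b = r • a + s • b := by
  have hsq' : ∀ a, x (x a) = - a := fun a => by rw [hsq]; simp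
  have hsymm : ∀ u v, B u (x v) = B v (x u) := by
    intro u v
    have h3 : B (x u) (x (x v)) = B u (x v) := hiso _ _
    rw [hsq', map_neg] at h3
    rw [← h3, alt_swap hA (x u) v, neg_neg]
  obtain ⟨a, hc⟩ : ∃ a, B a (x a) ≠ 0 := by
    obtain ⟨u, hu⟩ := exists_ne (0 : V)
    obtain ⟨y, hy⟩ : ∃ y, B u y ≠ 0 := by
      by_contra hcon
      push Not at hcon
      exact hu (hB.1 u hcon)
    set w := x y with hw
    have huw : B u (x w) ≠ 0 := by
      rw [hw, hsq', map_neg]
      exact neg_ne_zero.mpr hy
    by_contra hcon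
    push Not at hcon
    have h3 := hcon (u + w)
    simp only [map_add, LinearMap.add_apply] at h3
    rw [hcon u, hcon w, hsymm w u] at h3
    apply huw
    have h4 : 2 * B u (x w) = 0 := by linear_combination h3
    exact (mul_eq_zero.mp h4).resolve_left h2
  set c := B a (x a) with hcdef
  refine ⟨a, c⁻¹ • x a, 0, c, -c⁻¹, 0, ?_, ⟨rfl, rfl, hc, neg_ne_zero.mpr (inv_ne_zero hc)⟩, ?_, ?_⟩
  · rw [map_smul, smul_eq_mul, ← hcdef, inv_mul_cancel₀ hc]
  · rw [smul_smul, mul_inv_cancel₀ hc]
    simp
  · rw [map_smul, hsq']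
    simp

/-- The map given by a hyperbolic family is an isometry onto the space, when the size is right. -/
theorem exists_equiv_of_family {V : Type u} [AddCommGroup V] [Module F V] [FiniteDimensional F V]
    {B : LinearMap.BilinForm F V} (hA : B.IsAlt) {k : ℕ} (hdim : Module.finrank F V = 2 * k)
    {a b : Fin k → V} (h1 : ∀ i j, B (a i) (a j) = 0) (h2 : ∀ i j, B (b i) (b j) = 0)
    (h3 : ∀ i j, B (a i) (b j) = if i = j then 1 else 0) :
    ∃ e : (Fin k ⊕ Fin k → F) ≃ₗ[F] V,
      (∀ x, e x = ∑ i, (x (Sum.inr i) • a i + x (Sum.inl i) • b i)) ∧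
      ∀ u v, B (e u) (e v) = sympForm k F u v := by
  classical
  let T : (Fin k ⊕ Fin k → F) →ₗ[F] V :=
    ∑ i, ((LinearMap.proj (Sum.inr i)).smulRight (a i) + (LinearMap.proj (Sum.inl i)).smulRight (b i))
  have hT : ∀ x, T x = ∑ i, (x (Sum.inr i) • a i + x (Sum.inl i) • b i) := by
    intro x
    simp [T, LinearMap.sum_apply]
  have h4 : ∀ i j, B (b i) (a j) = - if j = i then 1 else 0 := by
    intro i j
    rw [alt_swap hA, h3]
  have hform : ∀ x y, B (T x) (T y) = sympForm k F x y := by
    intro x y
    rw [hT, hT, sympForm_apply]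
    simp only [map_sum, LinearMap.sum_apply, map_add, LinearMap.add_apply, map_smul,
      LinearMap.smul_apply, smul_eq_mul, h1, h2, h3, h4]
    apply Finset.sum_congr rfl
    intro i _
    simp only [mul_zero, add_zero, zero_add, mul_ite, mul_one, mul_neg]
    simp [Finset.sum_ite_eq, Finset.sum_ite_eq', sub_eq_add_neg, mul_comm]
    ring
  have hinj : Function.Injective T := by
    rw [injective_iff_map_eq_zero]
    intro x hx
    apply (sympBilin_nondegenerate (m := k) (F := F)).1
    intro y
    rw [sympBilin_apply, ← hform, hx]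
    simp
  have hrank : Module.finrank F (Fin k ⊕ Fin k → F) = Module.finrank F V := by
    rw [hdim]
    simp [Module.finrank_fintype_fun_eq_card]
    ring
  let e := LinearMap.linearEquivOfInjective T hinj hrank
  have he : ∀ x, e x = T x := fun x => rfl
  exact ⟨e, fun x => by rw [he, hT], fun u v => by rw [he, he, hform]⟩

theorem span_isotropic_aux {V : Type u} [AddCommGroup V] [Module F V]
    {B : LinearMap.BilinForm F V} {ι : Type*} {t : ι → V} (h : ∀ i j, B (t i) (t j) = 0) :
    ∀ u ∈ Submodule.span F (Set.range t), ∀ v ∈ Submodule.span F (Set.range t), B u v = 0 := by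
  intro u hu v hv
  induction hu using Submodule.span_induction with
  | mem x hx =>
    obtain ⟨i, rfl⟩ := hx
    induction hv using Submodule.span_induction with
    | mem y hy =>
      obtain ⟨j, rfl⟩ := hy
      exact h i j
    | zero => simp
    | add y z _ _ hy hz => rw [map_add, hy, hz, add_zero]
    | smul c y _ hy => rw [map_smul, hy, smul_zero]
  | zero => simp
  | add y z _ _ hy hz => rw [map_add, LinearMap.add_apply, hy, hz, add_zero]
  | smul c y _ hy => rw [LinearMap.map_smul₂, hy, smul_zero]

/-- The two halves of a hyperbolic basis are complementary. -/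
theorem isCompl_span_family {V : Type u} [AddCommGroup V] [Module F V] [FiniteDimensional F V]
    {B : LinearMap.BilinForm F V} (hA : B.IsAlt) (hB : B.Nondegenerate) {k : ℕ}
    (hdim : Module.finrank F V = 2 * k)
    {a b : Fin k → V} (h1 : ∀ i j, B (a i) (a j) = 0) (h2 : ∀ i j, B (b i) (b j) = 0)
    (h3 : ∀ i j, B (a i) (b j) = if i = j then 1 else 0) :
    IsCompl (Submodule.span F (Set.range a)) (Submodule.span F (Set.range b)) := by
  obtain ⟨e, he, -⟩ := exists_equiv_of_family hA hdim h1 h2 h3
  have htop : Submodule.span F (Set.range a) ⊔ Submodule.span F (Set.range b) = ⊤ := by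
    rw [eq_top_iff]
    intro v _
    obtain ⟨x, rfl⟩ := e.surjective v
    rw [he]
    apply Submodule.sum_mem
    intro i _
    exact Submodule.add_mem _
      (Submodule.mem_sup_left (Submodule.smul_mem _ _ (Submodule.subset_span ⟨i, rfl⟩)))
      (Submodule.mem_sup_right (Submodule.smul_mem _ _ (Submodule.subset_span ⟨i, rfl⟩)))
  have hiso : ∀ u ∈ Submodule.span F (Set.range a), ∀ v ∈ Submodule.span F (Set.range a),
      B u v = 0 := span_isotropic_aux h1
  have hiso' : ∀ u ∈ Submodule.span F (Set.range b), ∀ v ∈ Submodule.span F (Set.range b),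
      B u v = 0 := span_isotropic_aux h2
  refine ⟨?_, codisjoint_iff.mpr htop⟩
  rw [Submodule.disjoint_def]
  intro u hu hu'
  apply hB.1 u
  intro v
  have hv : v ∈ Submodule.span F (Set.range a) ⊔ Submodule.span F (Set.range b) := by
    rw [htop]
    trivial
  obtain ⟨v₁, hv₁, v₂, hv₂, rfl⟩ := Submodule.mem_sup.mp hv
  rw [map_add, hiso u hu v₁ hv₁, hiso' u hu' v₂ hv₂, add_zero]

end Cfsg.Agent.Lib.Classical.Symp.InvolSplit
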