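import Mathlib
import Cfsg.Prelude.Def_ClassicalGeometry
import Cfsg.Agent.Lib.Classical.Symp.Borel

/-!
# The diagonal torus of the symplectic group and its normaliser

The normaliser of the torus of diagonal matrices in `Sp_2m(q)`, for `q ≥ 4`, consists of the
monomial symplectic matrices; it is parametrised by `S_m × (Z/2)^m × (F^×)^m`.
-/

set_option autoImplicit false

namespace Cfsg.Agent.Lib.Classical.Symp.Torus

open Matrix Cfsg Cfsg.Agent.Lib.Classical.Symp.Basic Cfsg.Agent.Lib.Classical.Symp.Borel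

variable {m : ℕ} {F : Type*} [Field F]

/-- Coordinate vectors. -/
def e (α : Fin m ⊕ Fin m) : Fin m ⊕ Fin m → F := Pi.single α 1

theorem e_ne_zero (α : Fin m ⊕ Fin m) : (e α : Fin m ⊕ Fin m → F) ≠ 0 := by
  intro h
  have := congrFun h α
  simp [e] at this

theorem e_apply_self (α : Fin m ⊕ Fin m) : (e α : Fin m ⊕ Fin m → F) α = 1 := by
  simp [e]

theorem e_apply_ne {α γ : Fin m ⊕ Fin m} (h : γ ≠ α) : (e α : Fin m ⊕ Fin m → F) γ = 0 := by
  simp [e, Pi.single_apply, h]

/-- The torus: the elements stabilising every coordinate axis. -/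
noncomputable def torus (m : ℕ) (F : Type*) [Field F] : Subgroup (symplecticGroup (Fin m) F) :=
  ⨅ i : Fin m ⊕ Fin m, Cfsg.stabilizing (Cfsg.spToMat m F)
    ((Submodule.span F {(Pi.single i (1 : F) : Fin m ⊕ Fin m → F)} :
      Submodule F (Fin m ⊕ Fin m → F)) : Set (Fin m ⊕ Fin m → F))

theorem mem_torus {g : symplecticGroup (Fin m) F} :
    g ∈ torus m F ↔ ∀ α, ∃ d : F, g.1 *ᵥ e α = d • e α := by
  unfold torus
  rw [Subgroup.mem_iInf]
  constructor
  · intro h α
    have h1 := (h α (e α)).mp (Submodule.mem_span_singleton_self _)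
    obtain ⟨d, hd⟩ := Submodule.mem_span_singleton.mp h1
    exact ⟨d, hd.symm⟩
  · intro h α v
    refine mulVec_add_sp g _ (fun v hv => ?_) v
    obtain ⟨c, rfl⟩ := Submodule.mem_span_singleton.mp hv
    obtain ⟨d, hd⟩ := h α
    rw [mulVec_smul]
    change c • (g.1 *ᵥ e α) ∈ _
    rw [hd]
    exact Submodule.smul_mem _ _ (Submodule.smul_mem _ _ (Submodule.mem_span_singleton_self _))

theorem sp_inv_mul (g : symplecticGroup (Fin m) F) (v : Fin m ⊕ Fin m → F) :
    (g⁻¹).1 *ᵥ (g.1 *ᵥ v) = v := by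
  rw [mulVec_mulVec]
  have : (g⁻¹).1 * g.1 = 1 := congrArg Subtype.val (inv_mul_cancel g)
  rw [this, one_mulVec]

theorem sp_mul_inv (g : symplecticGroup (Fin m) F) (v : Fin m ⊕ Fin m → F) :
    g.1 *ᵥ ((g⁻¹).1 *ᵥ v) = v := by
  rw [mulVec_mulVec]
  have : g.1 * (g⁻¹).1 = 1 := congrArg Subtype.val (mul_inv_cancel g)
  rw [this, one_mulVec]

/-- The monomial elements. -/
def IsMono (g : symplecticGroup (Fin m) F) : Prop :=
  ∀ α, ∃ β, ∃ c : F, g.1 *ᵥ e α = c • e β

theorem IsMono.inv {g : symplecticGroup (Fin m) F} (h : IsMono g) : IsMono g⁻¹ := by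
  choose π c hπ using h
  have hc : ∀ α, c α ≠ 0 := by
    intro α h0
    have h1 := hπ α
    rw [h0, zero_smul] at h1
    have h2 := sp_inv_mul g (e α)
    rw [h1, mulVec_zero] at h2
    exact e_ne_zero α h2.symm
  have hinj : Function.Injective π := by
    intro α α' he
    by_contra hne
    have h1 : g.1 *ᵥ ((c α') • e α) = g.1 *ᵥ ((c α) • e α') := by
      rw [mulVec_smul, mulVec_smul, hπ, hπ, he, smul_smul, smul_smul, mul_comm]
    have h2 : (c α') • (e α : Fin m ⊕ Fin m → F) = (c α) • e α' := by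
      have := congrArg (fun w => (g⁻¹).1 *ᵥ w) h1
      simpa only [sp_inv_mul] using this
    have h3 := congrFun h2 α
    simp [e, hne, Pi.single_apply, hc α'] at h3
  have hsurj := Finite.surjective_of_injective hinj
  intro β
  obtain ⟨α, rfl⟩ := hsurj β
  refine ⟨α, (c α)⁻¹, ?_⟩
  have h1 : e (π α) = (c α)⁻¹ • g.1 *ᵥ e α := by
    rw [hπ, smul_smul, inv_mul_cancel₀ (hc α), one_smul]
  rw [h1, mulVec_smul, sp_inv_mul]

theorem conj_mem_torus {g t : symplecticGroup (Fin m) F} (hg : IsMono g) (ht : t ∈ torus m F) :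
    g * t * g⁻¹ ∈ torus m F := by
  rw [mem_torus] at ht ⊢
  intro β
  obtain ⟨α, c, hc⟩ := hg.inv β
  obtain ⟨d, hd⟩ := ht α
  refine ⟨d, ?_⟩
  have h1 : (g * t * g⁻¹).1 *ᵥ e β = g.1 *ᵥ (t.1 *ᵥ ((g⁻¹).1 *ᵥ e β)) := by
    simp [mulVec_mulVec, mul_assoc]
  rw [h1, hc, mulVec_smul, hd, smul_comm, mulVec_smul, ← hc, sp_mul_inv]

theorem mem_normalizer_of_isMono {g : symplecticGroup (Fin m) F} (hg : IsMono g) :
    g ∈ Subgroup.normalizer (torus m F : Set (symplecticGroup (Fin m) F)) := by
  rw [Subgroup.mem_normalizer_iff]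
  intro t
  constructor
  · exact conj_mem_torus hg
  · intro ht
    have := conj_mem_torus hg.inv ht
    simpa [mul_assoc] using this

/-- The diagonal entries of a torus element. -/
def dg (d : Fin m → Fˣ) : Fin m ⊕ Fin m → F :=
  Sum.elim (fun k => (d k : F)) (fun k => (((d k)⁻¹ : Fˣ) : F))

theorem diagonal_dg_mem (d : Fin m → Fˣ) :
    Matrix.diagonal (dg d) ∈ symplecticGroup (Fin m) F := by
  rw [mem_symplecticGroup_iff_forall]
  intro u v
  rw [sympForm_apply, sympForm_apply]
  apply Finset.sum_congr rfl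
  intro i _
  simp only [mulVec_diagonal, dg, Sum.elim_inl, Sum.elim_inr]
  have h1 : (((d i)⁻¹ : Fˣ) : F) * (d i : F) = 1 := by simp
  linear_combination (u (Sum.inr i) * v (Sum.inl i) - u (Sum.inl i) * v (Sum.inr i)) * h1

/-- The diagonal element of the symplectic group. -/
def tdiag (d : Fin m → Fˣ) : symplecticGroup (Fin m) F := ⟨Matrix.diagonal (dg d), diagonal_dg_mem d⟩

theorem tdiag_mulVec (d : Fin m → Fˣ) (v : Fin m ⊕ Fin m → F) (γ : Fin m ⊕ Fin m) :
    ((tdiag d).1 *ᵥ v) γ = dg d γ * v γ := by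
  simp [tdiag, mulVec_diagonal]

theorem tdiag_mem_torus (d : Fin m → Fˣ) : tdiag d ∈ torus m F := by
  rw [mem_torus]
  intro α
  refine ⟨dg d α, ?_⟩
  funext γ
  rw [tdiag_mulVec]
  by_cases h : γ = α
  · subst h
    simp
  · simp [e_apply_ne h]

/-- An element of the torus is a diagonal matrix. -/
theorem exists_diagonal_of_mem_torus {g : symplecticGroup (Fin m) F} (hg : g ∈ torus m F) :
    ∃ dd : Fin m ⊕ Fin m → F, g.1 = Matrix.diagonal dd := by
  rw [mem_torus] at hg
  choose dd hdd using hg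
  refine ⟨dd, ?_⟩
  ext γ δ
  have h1 := congrFun (hdd δ) γ
  rw [e, mulVec_single_one] at h1
  simp only [Matrix.col_apply] at h1
  rw [h1]
  by_cases h : γ = δ
  · subst h
    simp
  · simp [Pi.single_apply, h]

/-- Separating characters: for `q ≥ 4` every axis is an eigenspace of an element of the torus. -/
theorem exists_sep [Finite F] (hq : 4 ≤ Nat.card F) (α : Fin m ⊕ Fin m) :
    ∃ d : Fin m → Fˣ, ∃ a : F, dg d α = a ∧ ∀ γ, γ ≠ α → dg d γ ≠ a := by
  classical
  haveI := Fintype.ofFinite F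
  obtain ⟨x, -, hx⟩ : ∃ x ∈ (Finset.univ : Finset F), x ∉ ({0, 1, -1} : Finset F) := by
    apply Finset.exists_mem_notMem_of_card_lt_card
    rw [Finset.card_univ, ← Nat.card_eq_fintype_card]
    have : ({0, 1, -1} : Finset F).card ≤ 3 := Finset.card_le_three
    omega
  simp only [Finset.mem_insert, Finset.mem_singleton, not_or] at hx
  obtain ⟨h0, h1, h2⟩ := hx
  have hinv : x⁻¹ ≠ x := by
    intro h
    have h3 : x * x = 1 := by
      nth_rewrite 1 [← h]
      exact inv_mul_cancel₀ h0
    rcases mul_self_eq_one_iff.mp h3 with h4 | h4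
    · exact h1 h4
    · exact h2 h4
  have hinv1 : x⁻¹ ≠ 1 := by
    intro h
    apply h1
    have := inv_eq_one.mp h
    exact this
  let u : Fˣ := Units.mk0 x h0
  rcases α with i | i
  · refine ⟨Function.update 1 i u, x, by simp [dg, u], ?_⟩
    rintro (k | k) hk
    · have hki : k ≠ i := fun h => hk (by rw [h])
      simp only [dg, Sum.elim_inl, Function.update_of_ne hki]
      simpa using fun h => h1 h.symm
    · by_cases hki : k = i
      · subst hki
        simpa [dg, u] using hinv
      · simp only [dg, Sum.elim_inr, Function.update_of_ne hki]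
        simpa using fun h => h1 h.symm
  · refine ⟨Function.update 1 i u⁻¹, x, by simp [dg, u], ?_⟩
    rintro (k | k) hk
    · by_cases hki : k = i
      · subst hki
        simpa [dg, u] using hinv
      · simp only [dg, Sum.elim_inl, Function.update_of_ne hki]
        simpa using fun h => h1 h.symm
    · have hki : k ≠ i := fun h => hk (by rw [h])
      simp only [dg, Sum.elim_inr, Function.update_of_ne hki]
      simpa using fun h => h1 h.symm

theorem eq_smul_e_of_eigen {d : Fin m → Fˣ} {a : F} {α : Fin m ⊕ Fin m}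
    (h : ∀ γ, γ ≠ α → dg d γ ≠ a) {v : Fin m ⊕ Fin m → F}
    (hv : (tdiag d).1 *ᵥ v = a • v) : v = v α • e α := by
  funext γ
  by_cases hγ : γ = α
  · subst hγ
    simp [e]
  · have h1 := congrFun hv γ
    rw [tdiag_mulVec] at h1
    simp only [Pi.smul_apply, smul_eq_mul] at h1
    have h2 : (dg d γ - a) * v γ = 0 := by linear_combination h1
    have h3 : v γ = 0 := by
      rcases mul_eq_zero.mp h2 with h4 | h4
      · exact absurd (sub_eq_zero.mp h4) (h γ hγ)
      · exact h4
    simp [h3, e_apply_ne hγ]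

theorem isMono_of_mem_normalizer [Finite F] (hq : 4 ≤ Nat.card F) {g : symplecticGroup (Fin m) F}
    (hg : g ∈ Subgroup.normalizer (torus m F : Set (symplecticGroup (Fin m) F))) : IsMono g := by
  intro α
  obtain ⟨d, a, hα, hγ⟩ := exists_sep hq α
  have hconj : g * tdiag d * g⁻¹ ∈ torus m F :=
    (Subgroup.mem_normalizer_iff.mp hg (tdiag d)).mp (tdiag_mem_torus d)
  obtain ⟨dd, hdd⟩ := exists_diagonal_of_mem_torus hconj
  have hD : ∀ v : Fin m ⊕ Fin m → F,
      g.1 *ᵥ ((tdiag d).1 *ᵥ ((g⁻¹).1 *ᵥ v)) = Matrix.diagonal dd *ᵥ v := by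
    intro v
    rw [← hdd]
    simp [mulVec_mulVec, mul_assoc]
  have hα' : (tdiag d).1 *ᵥ e α = a • e α := by
    funext γ
    rw [tdiag_mulVec]
    by_cases h : γ = α
    · subst h
      simp [hα]
    · simp [e_apply_ne h]
  set w : Fin m ⊕ Fin m → F := g.1 *ᵥ e α with hwdef
  have hw : Matrix.diagonal dd *ᵥ w = a • w := by
    rw [← hD, hwdef, sp_inv_mul, hα', mulVec_smul]
  obtain ⟨β, hβ⟩ : ∃ β, w β ≠ 0 := by
    by_contra hcon
    push Not at hcon
    have h1 : w = 0 := funext hcon
    have h2 := sp_inv_mul g (e α)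
    rw [← hwdef, h1, mulVec_zero] at h2
    exact e_ne_zero α h2.symm
  have hβ' : dd β = a := by
    have h1 := congrFun hw β
    simp only [mulVec_diagonal, Pi.smul_apply, smul_eq_mul] at h1
    exact mul_right_cancel₀ hβ h1
  -- the inverse image of the axis
  set x : Fin m ⊕ Fin m → F := (g⁻¹).1 *ᵥ e β with hxdef
  have hgx : g.1 *ᵥ x = e β := sp_mul_inv g _
  have hx : (tdiag d).1 *ᵥ x = a • x := by
    have h1 : g.1 *ᵥ ((tdiag d).1 *ᵥ x) = a • e β := by
      rw [hxdef, hD]
      funext γ
      simp only [mulVec_diagonal, Pi.smul_apply, smul_eq_mul]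
      by_cases h : γ = β
      · subst h
        rw [hβ']
      · simp [e_apply_ne h]
    have h2 := sp_inv_mul g ((tdiag d).1 *ᵥ x)
    rw [h1, mulVec_smul, ← hxdef] at h2
    exact h2.symm
  have hx2 := eq_smul_e_of_eigen hγ hx
  have h3 : e β = x α • w := by
    rw [← hgx, hwdef, ← mulVec_smul, ← hx2]
  have h4 : x α ≠ 0 := by
    intro h0
    rw [h0, zero_smul] at h3
    exact e_ne_zero β h3
  refine ⟨β, (x α)⁻¹, ?_⟩
  rw [h3, smul_smul, inv_mul_cancel₀ h4, one_smul]

theorem mem_normalizer_iff_isMono [Finite F] (hq : 4 ≤ Nat.card F)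
    {g : symplecticGroup (Fin m) F} :
    g ∈ Subgroup.normalizer (torus m F : Set (symplecticGroup (Fin m) F)) ↔ IsMono g :=
  ⟨isMono_of_mem_normalizer hq, mem_normalizer_of_isMono⟩

/-- Index of a coordinate. -/
def idx (b : Bool) (j : Fin m) : Fin m ⊕ Fin m := bif b then Sum.inl j else Sum.inr j

/-- The sign attached to a Boolean. -/
def sg (b : Bool) : F := bif b then 1 else -1

@[simp] theorem idx_true (j : Fin m) : idx true j = Sum.inl j := rfl
@[simp] theorem idx_false (j : Fin m) : idx false j = Sum.inr j := rfl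

theorem idx_inj {b b' : Bool} {j j' : Fin m} (h : idx b j = idx b' j') : b = b' ∧ j = j' := by
  cases b <;> cases b' <;> simp_all [idx]

/-- Every coordinate is an `idx`. -/
theorem exists_idx (α : Fin m ⊕ Fin m) : ∃ b j, α = idx b j := by
  rcases α with j | j
  · exact ⟨true, j, rfl⟩
  · exact ⟨false, j, rfl⟩

/-- The parameter space. -/
abbrev Par (m : ℕ) (F : Type*) [Field F] := Equiv.Perm (Fin m) × (Fin m → Bool) × (Fin m → Fˣ)

/-- The columns of the monomial matrix with given parameters. -/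
def col (p : Par m F) : Fin m ⊕ Fin m → (Fin m ⊕ Fin m → F) :=
  Sum.elim (fun i => (p.2.2 i : F) • e (idx (p.2.1 i) (p.1 i)))
    (fun i => (sg (p.2.1 i) * (((p.2.2 i)⁻¹ : Fˣ) : F)) • e (idx (!p.2.1 i) (p.1 i)))

/-- The monomial matrix with given parameters. -/
def mat (p : Par m F) : Matrix (Fin m ⊕ Fin m) (Fin m ⊕ Fin m) F := Matrix.of fun β α => col p α β

theorem mat_mulVec_e (p : Par m F) (α : Fin m ⊕ Fin m) : mat p *ᵥ e α = col p α := by
  funext β
  rw [e, mulVec_single_one]
  rfl

theorem form_e_idx (b b' : Bool) (j j' : Fin m) :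
    sympForm m F (e (idx b j)) (e (idx b' j')) =
      if j = j' ∧ b ≠ b' then (bif b then -1 else 1) else 0 := by
  by_cases h : j = j' <;> cases b <;> cases b' <;> simp only [idx_true, idx_false, e,
    sympForm_single_inl, sympForm_single_inr, Pi.single_apply] <;> simp [h, eq_comm]

theorem form_smul_smul (c c' : F) (x y : Fin m ⊕ Fin m → F) :
    sympForm m F (c • x) (c' • y) = c * c' * sympForm m F x y := by
  change sympBilin m F (c • x) (c' • y) = c * c' * sympBilin m F x y
  simp only [map_smul, LinearMap.smul_apply, smul_eq_mul]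
  ring

theorem mem_of_form_e {A : Matrix (Fin m ⊕ Fin m) (Fin m ⊕ Fin m) F}
    (h : ∀ α β, sympForm m F (A *ᵥ e α) (A *ᵥ e β) = sympForm m F (e α) (e β)) :
    A ∈ symplecticGroup (Fin m) F := by
  rw [mem_symplecticGroup_iff_forall]
  have key : (sympBilin m F).compl₁₂ (Matrix.mulVecLin A) (Matrix.mulVecLin A) = sympBilin m F := by
    apply LinearMap.BilinForm.ext_basis (Pi.basisFun F (Fin m ⊕ Fin m))
    intro i j
    simpa [e, Pi.basisFun_apply] using h i j
  intro u v
  have := congrArg (fun B => B u v) key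
  simpa using this

theorem col_form (p : Par m F) (α β : Fin m ⊕ Fin m) :
    sympForm m F (col p α) (col p β) = sympForm m F (e α) (e β) := by
  obtain ⟨τ, ε, c⟩ := p
  have hc : ∀ i, ((c i : Fˣ) : F) * (((c i)⁻¹ : Fˣ) : F) = 1 := fun i => by simp
  rcases α with i | i <;> rcases β with k | k <;>
    simp only [col, Sum.elim_inl, Sum.elim_inr, form_smul_smul]
  · change _ = sympForm m F (e (idx true i)) (e (idx true k))
    rw [form_e_idx, form_e_idx]
    by_cases hik : i = k
    · subst hik
      simp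
    · simp [hik]
  · change _ = sympForm m F (e (idx true i)) (e (idx false k))
    rw [form_e_idx, form_e_idx]
    by_cases hik : i = k
    · subst hik
      have h1 := hc i
      cases h : ε i <;> simp [sg]
    · simp [hik]
  · change _ = sympForm m F (e (idx false i)) (e (idx true k))
    rw [form_e_idx, form_e_idx]
    by_cases hik : i = k
    · subst hik
      have h1 := hc i
      cases h : ε i <;> simp [sg]
    · simp [hik]
  · change _ = sympForm m F (e (idx false i)) (e (idx false k))
    rw [form_e_idx, form_e_idx]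
    by_cases hik : i = k
    · subst hik
      simp
    · simp [hik]

theorem mat_mem (p : Par m F) : mat p ∈ symplecticGroup (Fin m) F := by
  apply mem_of_form_e
  intro α β
  rw [mat_mulVec_e, mat_mulVec_e, col_form]

/-- The monomial element with given parameters. -/
def spMat (p : Par m F) : symplecticGroup (Fin m) F := ⟨mat p, mat_mem p⟩

theorem spMat_isMono (p : Par m F) : IsMono (spMat p) := by
  rintro (i | i)
  · exact ⟨_, _, mat_mulVec_e p _⟩
  · exact ⟨_, _, mat_mulVec_e p _⟩

theorem smul_e_inj {c c' : F} {β β' : Fin m ⊕ Fin m} (hc : c ≠ 0)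
    (h : c • (e β : Fin m ⊕ Fin m → F) = c' • e β') : β = β' ∧ c = c' := by
  have h1 := congrFun h β
  simp only [Pi.smul_apply, smul_eq_mul, e_apply_self, mul_one] at h1
  have hβ : β = β' := by
    by_contra hne
    rw [e_apply_ne hne, mul_zero] at h1
    exact hc h1
  subst hβ
  rw [e_apply_self, mul_one] at h1
  exact ⟨rfl, h1⟩

theorem spMat_injective : Function.Injective (spMat : Par m F → symplecticGroup (Fin m) F) := by
  rintro ⟨τ, ε, c⟩ ⟨τ', ε', c'⟩ h
  have h1 : ∀ α, col (τ, ε, c) α = col (τ', ε', c') α := fun α => by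
    rw [← mat_mulVec_e, ← mat_mulVec_e]
    have : mat (τ, ε, c) = mat (τ', ε', c') := congrArg Subtype.val h
    rw [this]
  have h2 : ∀ i, ε i = ε' i ∧ τ i = τ' i ∧ c i = c' i := fun i => by
    have h3 := h1 (Sum.inl i)
    simp only [col, Sum.elim_inl] at h3
    obtain ⟨h4, h5⟩ := smul_e_inj (c i).ne_zero h3
    obtain ⟨h6, h7⟩ := idx_inj h4
    exact ⟨h6, h7, Units.ext h5⟩
  have e1 : τ = τ' := Equiv.ext fun i => (h2 i).2.1
  have e2 : ε = ε' := funext fun i => (h2 i).1
  have e3 : c = c' := funext fun i => (h2 i).2.2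
  rw [e1, e2, e3]

theorem spMat_surjective_mono {g : symplecticGroup (Fin m) F} (hg : IsMono g) :
    ∃ p : Par m F, spMat p = g := by
  classical
  choose π c hπ using hg
  have hc : ∀ α, c α ≠ 0 := by
    intro α h0
    have h1 := hπ α
    rw [h0, zero_smul] at h1
    have h2 := sp_inv_mul g (e α)
    rw [h1, mulVec_zero] at h2
    exact e_ne_zero α h2.symm
  have hinj : Function.Injective π := by
    intro α α' he
    by_contra hne
    have h1 : g.1 *ᵥ ((c α') • e α) = g.1 *ᵥ ((c α) • e α') := by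
      rw [mulVec_smul, mulVec_smul, hπ, hπ, he, smul_smul, smul_smul, mul_comm]
    have h2 : (c α') • (e α : Fin m ⊕ Fin m → F) = (c α) • e α' := by
      have := congrArg (fun w => (g⁻¹).1 *ᵥ w) h1
      simpa only [sp_inv_mul] using this
    have h3 := congrFun h2 α
    simp [e, hne, Pi.single_apply, hc α'] at h3
  choose ε τ' hε using fun i => exists_idx (π (Sum.inl i))
  choose ε₂ τ₂ hε₂ using fun i => exists_idx (π (Sum.inr i))
  -- the form relation
  have hform : ∀ i, ε₂ i = !ε i ∧ τ₂ i = τ' i ∧ c (Sum.inr i) = sg (ε i) * (c (Sum.inl i))⁻¹ := by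
    intro i
    have h1 : sympForm m F (g.1 *ᵥ e (Sum.inl i)) (g.1 *ᵥ e (Sum.inr i)) =
        sympForm m F (e (Sum.inl i)) (e (Sum.inr i)) :=
      (mem_symplecticGroup_iff_forall.mp g.2) _ _
    rw [hπ, hπ, form_smul_smul, hε, hε₂, form_e_idx] at h1
    have h2 : sympForm m F (e (Sum.inl i)) (e (Sum.inr i)) = -1 := by
      change sympForm m F (e (idx true i)) (e (idx false i)) = -1
      rw [form_e_idx]
      simp
    rw [h2] at h1
    by_cases h3 : τ' i = τ₂ i ∧ ε i ≠ ε₂ i
    · rw [if_pos h3] at h1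
      have h4 : ε₂ i = !ε i := by
        have := h3.2
        cases h5 : ε i <;> cases h6 : ε₂ i <;> simp_all
      refine ⟨h4, h3.1.symm, ?_⟩
      have h5 := hc (Sum.inl i)
      field_simp
      cases h6 : ε i <;> simp [h6, sg] at h1 ⊢
      · linear_combination h1
      · linear_combination h1
    · rw [if_neg h3, mul_zero] at h1
      exact absurd h1.symm (by simp)
  have hτ : Function.Injective τ' := by
    intro i k hik
    by_contra hne
    have h1 := hε i
    have h2 := hε k
    have h3 := hε₂ k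
    rw [(hform k).1, (hform k).2.1] at h3
    by_cases h4 : ε i = ε k
    · have h6 : π (Sum.inl i) = π (Sum.inl k) := by rw [h1, h2, h4, hik]
      have h7 := hinj h6
      simp only [Sum.inl.injEq] at h7
      exact hne h7
    · have h5 : ε i = !ε k := by
        cases h8 : ε i <;> cases h9 : ε k <;> simp_all
      have h6 : π (Sum.inl i) = π (Sum.inr k) := by rw [h1, h3, h5, hik]
      have h7 := hinj h6
      simp at h7
  let τ : Equiv.Perm (Fin m) := Equiv.ofBijective τ' (Finite.injective_iff_bijective.mp hτ)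
  refine ⟨(τ, ε, fun i => Units.mk0 (c (Sum.inl i)) (hc _)), ?_⟩
  apply Subtype.ext
  -- compare columns
  have hcol : ∀ α, col (τ, ε, fun i => Units.mk0 (c (Sum.inl i)) (hc _)) α = g.1 *ᵥ e α := by
    rintro (i | i)
    · rw [hπ, hε]
      rfl
    · rw [hπ, hε₂, (hform i).1, (hform i).2.1, (hform i).2.2]
      simp [col, τ]
  ext γ δ
  have h1 := congrFun (hcol δ) γ
  rw [e, mulVec_single_one] at h1
  exact h1

/-- Order of the normaliser. -/
theorem card_normalizer [Finite F] (hq : 4 ≤ Nat.card F) :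
    Nat.card (Subgroup.normalizer (torus m F : Set (symplecticGroup (Fin m) F))) =
      2 ^ m * Nat.factorial m * (Nat.card F - 1) ^ m := by
  classical
  haveI := Fintype.ofFinite F
  let f : Par m F → Subgroup.normalizer (torus m F : Set (symplecticGroup (Fin m) F)) :=
    fun p => ⟨spMat p, mem_normalizer_of_isMono (spMat_isMono p)⟩
  have hf : Function.Bijective f := by
    constructor
    · intro p p' h
      exact spMat_injective (congrArg Subtype.val h)
    · rintro ⟨g, hg⟩
      obtain ⟨p, rfl⟩ := spMat_surjective_mono (isMono_of_mem_normalizer hq hg)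
      exact ⟨p, rfl⟩
  rw [← Nat.card_congr (Equiv.ofBijective f hf)]
  have h1 : Nat.card Fˣ = Nat.card F - 1 := by
    rw [Nat.card_eq_fintype_card, Nat.card_eq_fintype_card, Fintype.card_units]
  rw [Par, Nat.card_prod, Nat.card_prod, Nat.card_fun, Nat.card_fun, h1, Nat.card_perm]
  simp only [Nat.card_eq_fintype_card, Fintype.card_fin, Fintype.card_bool]
  ring

end Cfsg.Agent.Lib.Classical.Symp.Torus
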