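import Mathlib

/-!
# The numerical identity behind Steinberg's count of unipotent elements in `Sp`

`NN q m k` is the number of totally isotropic `k`-subspaces of a `2m`-dimensional symplectic space over a
field with `q` elements, `mu q k` the Moebius number of a `k`-dimensional space.  The identity is
`∑ mu k * NN m k * q ^ ee m k = ∑ mu k * NN m k`.
-/

set_option autoImplicit false

namespace Cfsg.Agent.Lib.Classical.Symp.UnipNum

/-- The Moebius number of a space of dimension `d`. -/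
def mu (q d : ℕ) : ℤ := (-1) ^ d * (q : ℤ) ^ (d.choose 2)

theorem mu_zero (q : ℕ) : mu q 0 = 1 := by simp [mu]

theorem mu_succ (q d : ℕ) : mu q (d + 1) = - (q : ℤ) ^ d * mu q d := by
  have h : (d + 1).choose 2 = d + d.choose 2 := by
    rw [Nat.choose_succ_succ' d 1, Nat.choose_one_right]
  simp only [mu, h, pow_succ, pow_add]
  ring

/-- The number of isotropic subspaces, by recursion. -/
def NN (q : ℕ) : ℕ → ℕ → ℤ
  | 0, 0 => 1
  | 0, _ + 1 => 0
  | _ + 1, 0 => 1
  | m + 1, k + 1 => (1 + (q : ℤ) ^ (2 * m + 1 - k)) * NN q m k + (q : ℤ) ^ (k + 1) * NN q m (k + 1)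

theorem NN_zero_right (q m : ℕ) : NN q m 0 = 1 := by
  cases m <;> rfl

theorem NN_succ_succ (q m k : ℕ) : NN q (m + 1) (k + 1) =
    (1 + (q : ℤ) ^ (2 * m + 1 - k)) * NN q m k + (q : ℤ) ^ (k + 1) * NN q m (k + 1) := rfl

theorem NN_eq_zero (q : ℕ) : ∀ m k : ℕ, m < k → NN q m k = 0 := by
  intro m
  induction m with
  | zero =>
    intro k hk
    obtain ⟨k, rfl⟩ : ∃ j, k = j + 1 := ⟨k - 1, by omega⟩
    rfl
  | succ m ih =>
    intro k hk
    obtain ⟨k, rfl⟩ : ∃ j, k = j + 1 := ⟨k - 1, by omega⟩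
    rw [NN_succ_succ, ih k (by omega), ih (k + 1) (by omega)]
    simp

/-- The number of frames. -/
def Fr (q m k : ℕ) : ℤ := ∏ i ∈ Finset.range k, ((q : ℤ) ^ (2 * m - i) - (q : ℤ) ^ i)

/-- The number of bases. -/
def gl (q k : ℕ) : ℤ := ∏ i ∈ Finset.range k, ((q : ℤ) ^ k - (q : ℤ) ^ i)

theorem Fr_zero_right (q m : ℕ) : Fr q m 0 = 1 := by simp [Fr]

theorem gl_zero (q : ℕ) : gl q 0 = 1 := by simp [gl]

theorem Fr_eq_zero (q : ℕ) {m k : ℕ} (h : m < k) : Fr q m k = 0 := by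
  apply Finset.prod_eq_zero (Finset.mem_range.mpr h)
  have : 2 * m - m = m := by omega
  rw [this, sub_self]

theorem Fr_succ (q m k : ℕ) : Fr q m (k + 1) = Fr q m k * ((q : ℤ) ^ (2 * m - k) - (q : ℤ) ^ k) := by
  simp [Fr, Finset.prod_range_succ]

theorem Fr_succ_succ (q m k : ℕ) :
    Fr q (m + 1) (k + 1) = ((q : ℤ) ^ (2 * m + 2) - 1) * ((q : ℤ) ^ k * Fr q m k) := by
  by_cases hk : m < k
  · rw [Fr_eq_zero q hk, Fr_eq_zero q (show m + 1 < k + 1 by omega)]
    simp
  · rw [Fr, Finset.prod_range_succ', Fr, mul_comm]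
    have e0 : 2 * (m + 1) - 0 = 2 * m + 2 := by omega
    simp only [e0, pow_zero]
    congr 1
    rw [← Finset.card_range k, ← Finset.prod_const, Finset.card_range, ← Finset.prod_mul_distrib]
    apply Finset.prod_congr rfl
    intro j hj
    have hj' : j < k := Finset.mem_range.mp hj
    have e1 : 2 * (m + 1) - (j + 1) = (2 * m - j) + 1 := by omega
    rw [e1, pow_succ, pow_succ]
    ring

theorem gl_succ (q k : ℕ) : gl q (k + 1) = ((q : ℤ) ^ (k + 1) - 1) * ((q : ℤ) ^ k * gl q k) := by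
  rw [gl, Finset.prod_range_succ', gl, mul_comm]
  simp only [pow_zero]
  congr 1
  have e : (q : ℤ) ^ k * ∏ i ∈ Finset.range k, ((q : ℤ) ^ k - (q : ℤ) ^ i) =
      ∏ i ∈ Finset.range k, ((q : ℤ) * ((q : ℤ) ^ k - (q : ℤ) ^ i)) := by
    rw [Finset.prod_mul_distrib, Finset.prod_const, Finset.card_range]
  rw [e]
  apply Finset.prod_congr rfl
  intro j _
  rw [pow_succ, pow_succ]
  ring

/-- The closed form. -/
theorem NN_mul_gl (q : ℕ) : ∀ m k : ℕ, NN q m k * gl q k = Fr q m k := by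
  intro m
  induction m with
  | zero =>
    intro k
    cases k with
    | zero => simp [NN, gl, Fr]
    | succ k =>
      rw [Fr_eq_zero q (by omega), NN_eq_zero q 0 (k + 1) (by omega)]
      simp
  | succ m ih =>
    intro k
    cases k with
    | zero => simp [NN_zero_right, gl_zero, Fr_zero_right]
    | succ k =>
      have h1 := ih k
      have h2 := ih (k + 1)
      rw [Fr_succ] at h2
      rw [Fr_succ_succ, NN_succ_succ]
      by_cases hk : m < k
      · rw [Fr_eq_zero q hk] at h1 h2 ⊢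
        rw [NN_eq_zero q m k hk, NN_eq_zero q m (k + 1) (by omega)]
        simp
      · obtain ⟨a, ha⟩ : ∃ a, 2 * m - k = a := ⟨_, rfl⟩
        have e1 : 2 * m + 1 - k = a + 1 := by omega
        have e2 : 2 * m + 2 = a + k + 2 := by omega
        rw [ha] at h2
        rw [e1, e2]
        have e3 : ((1 + (q : ℤ) ^ (a + 1)) * NN q m k + (q : ℤ) ^ (k + 1) * NN q m (k + 1)) * gl q (k + 1) =
            (1 + (q : ℤ) ^ (a + 1)) * (NN q m k * gl q k) * (((q : ℤ) ^ (k + 1) - 1) * (q : ℤ) ^ k) +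
              (q : ℤ) ^ (k + 1) * (NN q m (k + 1) * gl q (k + 1)) := by
          rw [gl_succ]
          ring
        rw [e3, h1, h2]
        simp only [pow_succ, pow_add]
        ring

theorem gl_pos {q : ℕ} (hq : 2 ≤ q) (k : ℕ) : 0 < gl q k := by
  apply Finset.prod_pos
  intro i hi
  have hi' : i < k := Finset.mem_range.mp hi
  have : (q : ℤ) ^ i < (q : ℤ) ^ k := pow_lt_pow_right₀ (by exact_mod_cast (by omega : 1 < q)) hi'
  linarith

/-- The exponent. -/
def ee (m k : ℕ) : ℕ := (k + 1).choose 2 + 2 * k * (m - k) + 2 * (m - k) ^ 2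

theorem ee_zero (m : ℕ) : ee m 0 = 2 * m ^ 2 := by simp [ee]

theorem ee_succ_succ {m j : ℕ} (hj : j ≤ m) : ee (m + 1) (j + 1) = ee m j + (2 * m + 1 - j) := by
  obtain ⟨r, rfl⟩ : ∃ r, m = j + r := ⟨m - j, by omega⟩
  have e1 : j + r + 1 - (j + 1) = r := by omega
  have e2 : j + r - j = r := by omega
  have e3 : 2 * (j + r) + 1 - j = j + 2 * r + 1 := by omega
  have e4 : (j + 1 + 1).choose 2 = (j + 1).choose 2 + (j + 1) := by
    rw [show (2 : ℕ) = 1 + 1 from rfl, Nat.choose_succ_succ' (j + 1) 1, Nat.choose_one_right]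
    ring
  simp only [ee, e1, e2, e3, e4]
  ring

theorem ee_succ_left {m j : ℕ} (hj : j ≤ m) : ee (m + 1) j = ee m j + (4 * m + 2 - 2 * j) := by
  obtain ⟨r, rfl⟩ : ∃ r, m = j + r := ⟨m - j, by omega⟩
  have e1 : j + r + 1 - j = r + 1 := by omega
  have e2 : j + r - j = r := by omega
  have e3 : 4 * (j + r) + 2 - 2 * j = 2 * j + 4 * r + 2 := by omega
  simp only [ee, e1, e2, e3]
  ring

/-- The sum of Moebius numbers. -/
def SS (q m : ℕ) : ℤ := ∑ k ∈ Finset.range (m + 1), mu q k * NN q m k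

/-- The weighted sum. -/
def TT (q m : ℕ) : ℤ := ∑ k ∈ Finset.range (m + 1), mu q k * NN q m k * (q : ℤ) ^ ee m k

theorem SS_zero (q : ℕ) : SS q 0 = 1 := by simp [SS, mu_zero, NN_zero_right]

theorem TT_zero (q : ℕ) : TT q 0 = 1 := by simp [TT, mu_zero, NN_zero_right, ee_zero]

theorem SS_succ (q m : ℕ) : SS q (m + 1) = - (q : ℤ) ^ (2 * m + 1) * SS q m := by
  have h1 : SS q (m + 1) = mu q 0 * NN q (m + 1) 0 +
      ∑ j ∈ Finset.range (m + 1), mu q (j + 1) * NN q (m + 1) (j + 1) := by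
    rw [SS, Finset.sum_range_succ', add_comm]
  have h2 : ∀ j ∈ Finset.range (m + 1), mu q (j + 1) * NN q (m + 1) (j + 1) =
      - (q : ℤ) ^ (2 * m + 1) * (mu q j * NN q m j) - (q : ℤ) ^ j * (mu q j * NN q m j) +
        (q : ℤ) ^ (j + 1) * (mu q (j + 1) * NN q m (j + 1)) := by
    intro j hj
    have hj' : j ≤ m := by
      have := Finset.mem_range.mp hj
      omega
    have e : (q : ℤ) ^ (2 * m + 1) = (q : ℤ) ^ j * (q : ℤ) ^ (2 * m + 1 - j) := by
      rw [← pow_add]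
      congr 1
      omega
    rw [NN_succ_succ, mu_succ, e]
    ring
  rw [h1, Finset.sum_congr rfl h2, Finset.sum_add_distrib, Finset.sum_sub_distrib, ← Finset.mul_sum]
  -- shift
  have h3 : ∑ j ∈ Finset.range (m + 1), (q : ℤ) ^ (j + 1) * (mu q (j + 1) * NN q m (j + 1)) =
      ∑ j ∈ Finset.range (m + 1), (q : ℤ) ^ j * (mu q j * NN q m j) - 1 := by
    have h4 := Finset.sum_range_succ' (fun j => (q : ℤ) ^ j * (mu q j * NN q m j)) (m + 1)
    have h5 := Finset.sum_range_succ (fun j => (q : ℤ) ^ j * (mu q j * NN q m j)) (m + 1)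
    simp only [NN_eq_zero q m (m + 1) (by omega), mu_zero, NN_zero_right, pow_zero, mul_zero, add_zero, one_mul] at h4 h5
    rw [h5] at h4
    linarith
  rw [h3, mu_zero, NN_zero_right, SS]
  ring

theorem TT_succ (q m : ℕ) : TT q (m + 1) = - (q : ℤ) ^ (2 * m + 1) * TT q m := by
  have h1 : TT q (m + 1) = mu q 0 * NN q (m + 1) 0 * (q : ℤ) ^ ee (m + 1) 0 +
      ∑ j ∈ Finset.range (m + 1), mu q (j + 1) * NN q (m + 1) (j + 1) * (q : ℤ) ^ ee (m + 1) (j + 1) := by
    rw [TT, Finset.sum_range_succ', add_comm]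
  set u : ℕ → ℤ := fun j => mu q j * NN q m j * (q : ℤ) ^ ee m j * (q : ℤ) ^ (4 * m + 2 - j) with hu
  have h2 : ∀ j ∈ Finset.range (m + 1), mu q (j + 1) * NN q (m + 1) (j + 1) * (q : ℤ) ^ ee (m + 1) (j + 1) =
      - (q : ℤ) ^ (2 * m + 1) * (mu q j * NN q m j * (q : ℤ) ^ ee m j) - u j +
        (q : ℤ) ^ (j + 1) * (mu q (j + 1) * NN q m (j + 1) * (q : ℤ) ^ ee (m + 1) (j + 1)) := by
    intro j hj
    have hj' : j ≤ m := by
      have := Finset.mem_range.mp hj
      omega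
    have e : (q : ℤ) ^ (2 * m + 1) = (q : ℤ) ^ j * (q : ℤ) ^ (2 * m + 1 - j) := by
      rw [← pow_add]
      congr 1
      omega
    have e' : (q : ℤ) ^ (4 * m + 2 - j) = (q : ℤ) ^ (2 * m + 1) * (q : ℤ) ^ (2 * m + 1 - j) := by
      rw [← pow_add]
      congr 1
      omega
    have e2 : (q : ℤ) ^ ee (m + 1) (j + 1) = (q : ℤ) ^ ee m j * (q : ℤ) ^ (2 * m + 1 - j) := by
      rw [ee_succ_succ hj', pow_add]
    rw [NN_succ_succ, mu_succ, hu]
    simp only
    rw [e', e2, e]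
    ring
  rw [h1, Finset.sum_congr rfl h2, Finset.sum_add_distrib, Finset.sum_sub_distrib, ← Finset.mul_sum]
  -- shift
  have h3 : ∑ j ∈ Finset.range (m + 1), (q : ℤ) ^ (j + 1) * (mu q (j + 1) * NN q m (j + 1) * (q : ℤ) ^ ee (m + 1) (j + 1)) =
      ∑ j ∈ Finset.range (m + 1), u j - u 0 := by
    have h4 : ∀ j : ℕ, j ≤ m → (q : ℤ) ^ j * (mu q j * NN q m j * (q : ℤ) ^ ee (m + 1) j) = u j := by
      intro j hj
      have e1 : (q : ℤ) ^ ee (m + 1) j = (q : ℤ) ^ ee m j * (q : ℤ) ^ (4 * m + 2 - 2 * j) := by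
        rw [ee_succ_left hj, pow_add]
      have e2 : (q : ℤ) ^ (4 * m + 2 - j) = (q : ℤ) ^ j * (q : ℤ) ^ (4 * m + 2 - 2 * j) := by
        rw [← pow_add]
        congr 1
        omega
      rw [hu]
      simp only
      rw [e1, e2]
      ring
    have h5 := Finset.sum_range_succ' (fun j => (q : ℤ) ^ j * (mu q j * NN q m j * (q : ℤ) ^ ee (m + 1) j)) (m + 1)
    have h6 := Finset.sum_range_succ (fun j => (q : ℤ) ^ j * (mu q j * NN q m j * (q : ℤ) ^ ee (m + 1) j)) (m + 1)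
    simp only [NN_eq_zero q m (m + 1) (by omega), mul_zero, zero_mul, add_zero] at h5 h6
    rw [h6] at h5
    have h7 := h4 0 (Nat.zero_le m)
    have h8 : ∑ j ∈ Finset.range (m + 1), (q : ℤ) ^ j * (mu q j * NN q m j * (q : ℤ) ^ ee (m + 1) j) =
        ∑ j ∈ Finset.range (m + 1), u j := by
      apply Finset.sum_congr rfl
      intro j hj
      exact h4 j (by have := Finset.mem_range.mp hj; omega)
    rw [h8] at h5
    simp only [pow_zero] at h5
    rw [pow_zero] at h7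
    linarith
  rw [h3]
  have h9 : mu q 0 * NN q (m + 1) 0 * (q : ℤ) ^ ee (m + 1) 0 = u 0 := by
    rw [hu]
    simp only [mu_zero, NN_zero_right]
    rw [ee_succ_left (Nat.zero_le m), pow_add]
    simp
  rw [h9, TT]
  ring

/-- The identity. -/
theorem SS_eq_TT (q m : ℕ) : SS q m = TT q m := by
  induction m with
  | zero => rw [SS_zero, TT_zero]
  | succ m ih => rw [SS_succ, TT_succ, ih]

end Cfsg.Agent.Lib.Classical.Symp.UnipNum
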