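import Mathlib
import Cfsg.Agent.Lib.Classical.Symp.UnipNum
import Cfsg.Agent.Lib.Classical.Symp.IsoCount

/-!
# A cone in the lattice of subspaces has vanishing Moebius sum

If a family of subspaces is closed under passing to subspaces and under adding a fixed nonzero vector `v`, the
sum of `(-1)^d q^(d choose 2)` over the family vanishes.
-/

set_option autoImplicit false

namespace Cfsg.Agent.Lib.Classical.Symp.UnipCone

open Cfsg.Agent.Lib.Classical.Symp.UnipNum
open Module

universe u v

section Functional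

variable {F : Type u} {E : Type v} [Field F] [Finite F] [AddCommGroup E] [Module F E] [FiniteDimensional F E]

theorem card_functionals {w : E} (hw : w ≠ 0) :
    Nat.card {φ : Module.Dual F E // φ w = 1} = Nat.card F ^ (finrank F E - 1) := by
  classical
  obtain ⟨φ₀, hφ₀⟩ : ∃ φ₀ : Module.Dual F E, φ₀ w = 1 := by
    obtain ⟨f, hf⟩ : ∃ f : Module.Dual F E, f w ≠ 0 := by
      by_contra hcon
      push Not at hcon
      exact hw ((Module.forall_dual_apply_eq_zero_iff F w).mp hcon)
    refine ⟨(f w)⁻¹ • f, ?_⟩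
    simp [hf]
  let ev : Module.Dual F E →ₗ[F] F := Module.Dual.eval F E w
  have hev : ∀ φ, ev φ = φ w := fun _ => rfl
  have hsurj : LinearMap.range ev = ⊤ := by
    rw [LinearMap.range_eq_top]
    intro c
    exact ⟨c • φ₀, by simp [hev, hφ₀]⟩
  have hrk := LinearMap.finrank_range_add_finrank_ker ev
  rw [hsurj, finrank_top, finrank_self, Subspace.dual_finrank_eq] at hrk
  let e : {φ : Module.Dual F E // φ w = 1} ≃ LinearMap.ker ev :=
    { toFun := fun φ => ⟨φ.1 - φ₀, by
        rw [LinearMap.mem_ker, map_sub, hev, hev, φ.2, hφ₀, sub_self]⟩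
      invFun := fun ψ => ⟨ψ.1 + φ₀, by
        have : ev ψ.1 = 0 := LinearMap.mem_ker.mp ψ.2
        rw [LinearMap.add_apply, ← hev, this, hφ₀, zero_add]⟩
      left_inv := fun φ => by
        apply Subtype.ext
        simp
      right_inv := fun ψ => by
        apply Subtype.ext
        simp }
  rw [Nat.card_congr e, Cfsg.Agent.Lib.Classical.Symp.Count.natCard_eq_pow_finrank F (LinearMap.ker ev)]
  congr 1
  omega

end Functional

section Sub

variable {F : Type u} {V : Type v} [Field F] [Finite F] [AddCommGroup V] [Module F V] [FiniteDimensional F V]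

theorem finrank_sup_span {A : Submodule F V} {w : V} (hw : w ∉ A) :
    finrank F ↥(A ⊔ Submodule.span F {w}) = finrank F A + 1 := by
  have hw0 : w ≠ 0 := fun h => hw (h ▸ A.zero_mem)
  have h1 := Submodule.finrank_sup_add_finrank_inf_eq A (Submodule.span F {w})
  have h2 : A ⊓ Submodule.span F {w} = ⊥ := by
    rw [← disjoint_iff]
    exact (Submodule.disjoint_span_singleton' hw0).mpr hw
  rw [h2, finrank_bot, finrank_span_singleton hw0] at h1
  omega

/-- The complements of a line in a space correspond to functionals. -/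
theorem card_complements {A' : Submodule F V} {w : V} (hw : w ∈ A') (hw0 : w ≠ 0) :
    Nat.card {A : Submodule F V // A ⊔ Submodule.span F {w} = A' ∧ w ∉ A} = Nat.card F ^ (finrank F A' - 1) := by
  classical
  have hw₀ : (⟨w, hw⟩ : A') ≠ 0 := fun h => hw0 (congrArg Subtype.val h)
  rw [← card_functionals (F := F) hw₀]
  symm
  apply Nat.card_congr
  refine Equiv.ofBijective (fun φ => ⟨(LinearMap.ker φ.1).map A'.subtype, ?_, ?_⟩) ⟨?_, ?_⟩
  · apply le_antisymm
    · refine sup_le ?_ ?_
      · rintro _ ⟨y, -, rfl⟩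
        exact y.2
      · rw [Submodule.span_singleton_le_iff_mem]
        exact hw
    · intro x hx
      have e : x = ((⟨x, hx⟩ - φ.1 ⟨x, hx⟩ • (⟨w, hw⟩ : A') : A') : V) + φ.1 ⟨x, hx⟩ • w := by
        simp
      rw [e]
      refine Submodule.add_mem_sup ⟨⟨x, hx⟩ - φ.1 ⟨x, hx⟩ • (⟨w, hw⟩ : A'), ?_, rfl⟩
        (Submodule.smul_mem _ _ (Submodule.mem_span_singleton_self w))
      rw [SetLike.mem_coe, LinearMap.mem_ker, map_sub, map_smul, φ.2]
      simp
  · rintro ⟨y, hy, e⟩
    have h1 : y = ⟨w, hw⟩ := Subtype.ext e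
    rw [SetLike.mem_coe, LinearMap.mem_ker, h1, φ.2] at hy
    exact one_ne_zero hy
  · intro φ ψ h
    have h1 : (LinearMap.ker φ.1).map A'.subtype = (LinearMap.ker ψ.1).map A'.subtype := congrArg Subtype.val h
    have h2 : LinearMap.ker φ.1 = LinearMap.ker ψ.1 := Submodule.map_injective_of_injective A'.injective_subtype h1
    apply Subtype.ext
    apply LinearMap.ext
    intro x
    have h3 : x - φ.1 x • (⟨w, hw⟩ : A') ∈ LinearMap.ker φ.1 := by
      rw [LinearMap.mem_ker, map_sub, map_smul, φ.2]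
      simp
    rw [h2, LinearMap.mem_ker, map_sub, map_smul, ψ.2] at h3
    simp only [smul_eq_mul, mul_one] at h3
    exact (sub_eq_zero.mp h3).symm
  · rintro ⟨A, hA, hwA⟩
    have hle : A ≤ A' := hA ▸ le_sup_left
    have hw' : (⟨w, hw⟩ : A') ∉ A.comap A'.subtype := hwA
    obtain ⟨f, hf, hf2⟩ := Submodule.exists_dual_map_eq_bot_of_notMem hw' inferInstance
    let φ : Module.Dual F A' := (f ⟨w, hw⟩)⁻¹ • f
    have hφ : φ ⟨w, hw⟩ = 1 := by
      simp [φ, hf]
    have hφA : ∀ a (ha : a ∈ A), φ ⟨a, hle ha⟩ = 0 := by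
      intro a ha
      have h0 : f ⟨a, hle ha⟩ ∈ (A.comap A'.subtype).map f := ⟨⟨a, hle ha⟩, ha, rfl⟩
      rw [hf2, Submodule.mem_bot] at h0
      simp [φ, h0]
    refine ⟨⟨φ, hφ⟩, Subtype.ext ?_⟩
    apply le_antisymm
    · rintro _ ⟨y, hy, rfl⟩
      have hy' : φ y = 0 := hy
      have h1 : (y : V) ∈ A ⊔ Submodule.span F {w} := by
        rw [hA]
        exact y.2
      obtain ⟨a, ha, b, hb, e⟩ := Submodule.mem_sup.mp h1
      obtain ⟨c, rfl⟩ := Submodule.mem_span_singleton.mp hb
      have e2 : y = ⟨a, hle ha⟩ + c • (⟨w, hw⟩ : A') := Subtype.ext e.symm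
      rw [e2, map_add, map_smul, hφ, hφA a ha, zero_add] at hy'
      simp only [smul_eq_mul, mul_one] at hy'
      subst hy'
      simp only [zero_smul, add_zero] at e
      change (y : V) ∈ A
      rw [← e]
      exact ha
    · intro a ha
      exact ⟨⟨a, hle ha⟩, hφA a ha, rfl⟩

variable [Fintype (Submodule F V)]

open scoped _root_.Classical in
/-- **The cone lemma.** -/
theorem cone_sum (S : Set (Submodule F V)) {w : V} (hw : w ≠ 0) (hdown : ∀ A ∈ S, ∀ C ≤ A, C ∈ S)
    (hcone : ∀ A ∈ S, A ⊔ Submodule.span F {w} ∈ S) :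
    ∑ A ∈ Finset.univ.filter (fun A : Submodule F V => A ∈ S), mu (Nat.card F) (finrank F A) = 0 := by
  set q := Nat.card F with hq
  have hsplit := Finset.sum_filter_add_sum_filter_not (Finset.univ.filter (fun A : Submodule F V => A ∈ S))
    (fun A => w ∈ A) (fun A => mu q (finrank F A))
  rw [← hsplit]
  set U := (Finset.univ.filter (fun A : Submodule F V => A ∈ S)).filter (fun A => w ∈ A) with hU
  set T := (Finset.univ.filter (fun A : Submodule F V => A ∈ S)).filter (fun A => ¬ w ∈ A) with hT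
  have hmaps : ∀ A ∈ T, A ⊔ Submodule.span F {w} ∈ U := by
    intro A hA
    simp only [hT, Finset.mem_filter, Finset.mem_univ, true_and] at hA
    simp only [hU, Finset.mem_filter, Finset.mem_univ, true_and]
    refine ⟨hcone A hA.1, Submodule.mem_sup_right (Submodule.mem_span_singleton_self w)⟩
  rw [← Finset.sum_fiberwise_of_maps_to hmaps, ← Finset.sum_add_distrib]
  apply Finset.sum_eq_zero
  intro A' hA'
  simp only [hU, Finset.mem_filter, Finset.mem_univ, true_and] at hA'
  have hd : 1 ≤ finrank F A' := by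
    have hne : (⟨w, hA'.2⟩ : A') ≠ 0 := fun h => hw (congrArg Subtype.val h)
    haveI : Nontrivial A' := ⟨⟨_, 0, hne⟩⟩
    exact Module.finrank_pos
  obtain ⟨d, hd'⟩ : ∃ d, finrank F A' = d + 1 := ⟨finrank F A' - 1, by omega⟩
  have h1 : ∀ A ∈ T.filter (fun A => A ⊔ Submodule.span F {w} = A'), mu q (finrank F A) = mu q d := by
    intro A hA
    simp only [hT, Finset.mem_filter, Finset.mem_univ, true_and] at hA
    have := finrank_sup_span hA.1.2
    rw [hA.2, hd'] at this
    congr 1
    omega
  rw [Finset.sum_congr rfl h1, Finset.sum_const, nsmul_eq_mul]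
  have h2 : (T.filter (fun A => A ⊔ Submodule.span F {w} = A')).card = q ^ d := by
    have h3 := card_complements hA'.2 hw
    rw [hd', Nat.add_sub_cancel] at h3
    rw [← hq] at h3
    rw [← h3, Nat.card_eq_fintype_card, Fintype.card_subtype]
    congr 1
    ext A
    simp only [hT, Finset.mem_filter, Finset.mem_univ, true_and]
    constructor
    · rintro ⟨⟨h4, h5⟩, h6⟩
      exact ⟨h6, h5⟩
    · rintro ⟨h6, h5⟩
      refine ⟨⟨hdown A' hA'.1 A ?_, h5⟩, h6⟩
      rw [← h6]
      exact le_sup_left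
  rw [h2, hd', mu_succ]
  push_cast
  ring

end Sub

end Cfsg.Agent.Lib.Classical.Symp.UnipCone
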