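import Mathlib
import Cfsg.Agent.Lib.Classical.Symp.UnipCone

/-!
# The pointwise stabiliser of an isotropic subspace

For an isotropic subspace `A` of a symplectic space and a complement `W` of `A` in `A^⊥`, the pointwise stabiliser
of `A` maps onto the isometry group of `W`, with kernel a group of elements of `p`-power order.
-/

set_option autoImplicit false
set_option linter.unusedSectionVars false

namespace Cfsg.Agent.Lib.Classical.Symp.UnipFix

open Module
open Cfsg.Agent.Lib.Classical.Symp.AltForm Cfsg.Agent.Lib.Classical.Symp.Count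
open Cfsg.Agent.Lib.Classical.Symp.SpGL Cfsg.Agent.Lib.Classical.Symp.IsoCount
open Cfsg.Agent.Lib.Classical.Symp.Hyperbolic

universe u v

section Groups

/-- Elements of `p`-power order. -/
def IsPE (p : ℕ) {G : Type*} [Monoid G] (g : G) : Prop := ∃ t : ℕ, g ^ (p ^ t) = 1

theorem card_eq_mul_of_fibers {G X : Type*} [Group G] (H : Subgroup G) (φ : G → X)
    (hs : Function.Surjective φ) (hf : ∀ g g', φ g = φ g' ↔ g⁻¹ * g' ∈ H) :
    Nat.card G = Nat.card X * Nat.card H := by
  let ψ : G ⧸ H → X := Quotient.lift φ (fun a b hab =>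
    (hf a b).2 (QuotientGroup.leftRel_apply.1 hab))
  have hψ : Function.Bijective ψ := by
    constructor
    · intro a b
      induction a using QuotientGroup.induction_on with | H a => ?_
      induction b using QuotientGroup.induction_on with | H b => ?_
      intro hab
      exact QuotientGroup.eq.2 ((hf a b).1 hab)
    · intro x
      obtain ⟨g, rfl⟩ := hs x
      exact ⟨(g : G ⧸ H), rfl⟩
  rw [Subgroup.card_eq_card_quotient_mul_card_subgroup H, Nat.card_congr (Equiv.ofBijective ψ hψ)]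

variable {T L : Type*} [Group T] [Group L] [Finite T] [Finite L]

/-- Elements of `p`-power order in an extension by a normal subgroup of `p`-elements. -/
theorem card_pe_of_surj (p : ℕ) (ρ : T →* L) (hs : Function.Surjective ρ) (hk : ∀ g ∈ ρ.ker, IsPE p g) :
    Nat.card {g : T // IsPE p g} = Nat.card ρ.ker * Nat.card {l : L // IsPE p l} := by
  classical
  have hiff : ∀ g : T, IsPE p g ↔ IsPE p (ρ g) := by
    intro g
    constructor
    · rintro ⟨t, ht⟩
      exact ⟨t, by rw [← map_pow, ht, map_one]⟩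
    · rintro ⟨t, ht⟩
      have h1 : g ^ (p ^ t) ∈ ρ.ker := by
        rw [MonoidHom.mem_ker, map_pow, ht]
      obtain ⟨s, hs'⟩ := hk _ h1
      exact ⟨t + s, by rw [pow_add, pow_mul, hs']⟩
  let e : {g : T // IsPE p g} ≃ Σ l : {l : L // IsPE p l}, {g : T // ρ g = l.1} :=
    { toFun := fun g => ⟨⟨ρ g.1, (hiff g.1).1 g.2⟩, ⟨g.1, rfl⟩⟩
      invFun := fun x => ⟨x.2.1, (hiff _).2 (by rw [x.2.2]; exact x.1.2)⟩
      left_inv := fun g => rfl
      right_inv := by
        rintro ⟨⟨l, hl⟩, ⟨g, hg⟩⟩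
        have hg' : ρ g = l := hg
        subst hg'
        rfl }
  haveI : Fintype {l : L // IsPE p l} := Fintype.ofFinite _
  rw [Nat.card_congr e, Nat.card_sigma]
  have hfib : ∀ l : {l : L // IsPE p l}, Nat.card {g : T // ρ g = l.1} = Nat.card ρ.ker := by
    intro l
    obtain ⟨g₀, hg₀⟩ := hs l.1
    apply Nat.card_congr
    exact
      { toFun := fun g => ⟨g₀⁻¹ * g.1, by
          rw [MonoidHom.mem_ker, map_mul, map_inv, hg₀, g.2, inv_mul_cancel]⟩
        invFun := fun k => ⟨g₀ * k.1, by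
          have h := k.2
          rw [MonoidHom.mem_ker] at h
          rw [map_mul, h, mul_one, hg₀]⟩
        left_inv := fun g => by
          apply Subtype.ext
          simp
        right_inv := fun k => by
          apply Subtype.ext
          simp }
  simp_rw [hfib]
  rw [Finset.sum_const, Finset.card_univ, smul_eq_mul, Nat.card_eq_fintype_card (α := {l : L // IsPE p l}), mul_comm]

end Groups

section Nilp

variable {F : Type u} {V : Type v} [Field F] [AddCommGroup V] [Module F V]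

/-- Coercion of an isometry to an endomorphism is multiplicative. -/
theorem coe_pow_end (g : V ≃ₗ[F] V) (n : ℕ) :
    (((g ^ n : V ≃ₗ[F] V) : V →ₗ[F] V) : Module.End F V) = ((g : V →ₗ[F] V) : Module.End F V) ^ n :=
  map_pow (LinearEquiv.automorphismGroup.toLinearMapMonoidHom (R := F) (M := V)) g n

variable {p : ℕ} [hp : Fact p.Prime] [CharP F p]

/-- In characteristic `p`, `(g - 1) ^ p ^ t = g ^ p ^ t - 1`. -/
theorem sub_one_pow (g : V ≃ₗ[F] V) (t : ℕ) :
    ((((g : V →ₗ[F] V) : Module.End F V) - 1) ^ (p ^ t) : Module.End F V) =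
      ((g : V →ₗ[F] V) : Module.End F V) ^ (p ^ t) - 1 := by
  by_cases hV : Nontrivial V
  · haveI : CharP (Module.End F V) p := charP_of_injective_algebraMap (algebraMap F (Module.End F V)).injective p
    rw [sub_pow_char_pow_of_commute (p := p) (n := t) (Commute.one_right _), one_pow]
  · rw [not_nontrivial_iff_subsingleton] at hV
    ext x
    exact Subsingleton.elim _ _

/-- If `g - 1` is nilpotent, `g` has `p`-power order. -/
theorem isPE_of_nilp (g : V ≃ₗ[F] V) {n : ℕ} (h : (((g : V →ₗ[F] V) : Module.End F V) - 1) ^ n = 0) :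
    IsPE p g := by
  refine ⟨n, ?_⟩
  have h1 : n ≤ p ^ n := (Nat.lt_pow_self hp.out.one_lt).le
  have h2 : (((g : V →ₗ[F] V) : Module.End F V) - 1) ^ (p ^ n) = 0 := by
    obtain ⟨r, hr⟩ := Nat.exists_eq_add_of_le h1
    rw [hr, pow_add, h, zero_mul]
  rw [sub_one_pow, sub_eq_zero] at h2
  apply LinearEquiv.toLinearMap_injective
  rw [coe_pow_end, h2]
  rfl

/-- If `g` has `p`-power order, `g - 1` is nilpotent. -/
theorem nilp_of_isPE {g : V ≃ₗ[F] V} (h : IsPE p g) :
    ∃ n : ℕ, (((g : V →ₗ[F] V) : Module.End F V) - 1) ^ n = 0 := by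
  obtain ⟨t, ht⟩ := h
  refine ⟨p ^ t, ?_⟩
  rw [sub_one_pow, ← coe_pow_end, ht]
  exact sub_self _

end Nilp

section Main

variable {F : Type u} {V : Type v} [Field F] [AddCommGroup V] [Module F V] [FiniteDimensional F V]
variable {B : LinearMap.BilinForm F V} {A W C : Submodule F V}

/-- The pointwise stabiliser of a subspace. -/
def fixer (B : LinearMap.BilinForm F V) (A : Submodule F V) : Subgroup (IsomGroup B) where
  carrier := {g | ∀ a ∈ A, (g : V ≃ₗ[F] V) a = a}
  mul_mem' := by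
    intro g h hg hh a ha
    change (g : V ≃ₗ[F] V) ((h : V ≃ₗ[F] V) a) = a
    rw [hh a ha, hg a ha]
  one_mem' := fun a _ => rfl
  inv_mem' := by
    intro g hg a ha
    change (g : V ≃ₗ[F] V).symm a = a
    rw [LinearEquiv.symm_apply_eq]
    exact (hg a ha).symm

theorem mem_fixer {g : IsomGroup B} : g ∈ fixer B A ↔ ∀ a ∈ A, (g : V ≃ₗ[F] V) a = a := Iff.rfl

/-- The decomposition data. -/
structure Dec (B : LinearMap.BilinForm F V) (A W C : Submodule F V) : Prop where
  hA : B.IsAlt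
  hB : B.Nondegenerate
  ti : ∀ u ∈ A, ∀ v ∈ A, B u v = 0
  inf : A ⊓ W = ⊥
  sup : A ⊔ W = B.orthogonal A
  compl : IsCompl W (A ⊔ C)

namespace Dec

variable (D : Dec B A W C)
include D

theorem W_le : W ≤ B.orthogonal A := by
  rw [← D.sup]
  exact le_sup_right

theorem A_le : A ≤ B.orthogonal A := by
  rw [← D.sup]
  exact le_sup_left

theorem orth_left {a y : V} (ha : a ∈ A) (hy : y ∈ B.orthogonal A) : B a y = 0 :=
  (LinearMap.BilinForm.mem_orthogonal_iff.mp hy) a ha

theorem orth_right {a y : V} (ha : a ∈ A) (hy : y ∈ B.orthogonal A) : B y a = 0 := by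
  rw [alt_swap D.hA, D.orth_left ha hy, neg_zero]

/-- The projection to `W`. -/
noncomputable def pi : V →ₗ[F] W := Submodule.projectionOnto W (A ⊔ C) D.compl

theorem pi_W {w : V} (hw : w ∈ W) : D.pi w = ⟨w, hw⟩ :=
  Submodule.projectionOnto_apply_of_mem_left D.compl hw

theorem pi_W' (w : W) : D.pi w = w := D.pi_W w.2

theorem pi_A {a : V} (ha : a ∈ A) : D.pi a = 0 := by
  have h := Submodule.projectionOnto_apply_right D.compl ⟨a, Submodule.mem_sup_left ha⟩
  exact h

theorem sub_pi_mem {x : V} (hx : x ∈ B.orthogonal A) : x - (D.pi x : V) ∈ A := by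
  rw [← D.sup] at hx
  obtain ⟨a, ha, w, hw, rfl⟩ := Submodule.mem_sup.mp hx
  rw [map_add, D.pi_A ha, D.pi_W hw, zero_add]
  simpa using ha

theorem map_orth {g : IsomGroup B} (hg : g ∈ fixer B A) {x : V} (hx : x ∈ B.orthogonal A) :
    (g : V ≃ₗ[F] V) x ∈ B.orthogonal A := by
  rw [LinearMap.BilinForm.mem_orthogonal_iff]
  intro a ha
  have h1 := g.2 a x
  rw [hg a ha] at h1
  rw [h1]
  exact D.orth_left ha hx

/-- The induced map on `W`. -/
noncomputable def rr (g : IsomGroup B) : W →ₗ[F] W :=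
  D.pi ∘ₗ ((g : V ≃ₗ[F] V) : V →ₗ[F] V) ∘ₗ W.subtype

theorem rr_apply (g : IsomGroup B) (w : W) : D.rr g w = D.pi ((g : V ≃ₗ[F] V) w) := rfl

theorem sub_rr_mem {g : IsomGroup B} (hg : g ∈ fixer B A) (w : W) :
    (g : V ≃ₗ[F] V) w - (D.rr g w : V) ∈ A :=
  D.sub_pi_mem (D.map_orth hg (D.W_le w.2))

theorem rr_form {g : IsomGroup B} (hg : g ∈ fixer B A) (x y : W) :
    B (D.rr g x : V) (D.rr g y : V) = B (x : V) (y : V) := by
  have h1 := g.2 (x : V) (y : V)
  obtain ⟨a, ha⟩ : ∃ a, a = (g : V ≃ₗ[F] V) x - (D.rr g x : V) := ⟨_, rfl⟩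
  obtain ⟨b, hb⟩ : ∃ b, b = (g : V ≃ₗ[F] V) y - (D.rr g y : V) := ⟨_, rfl⟩
  have ha' : a ∈ A := ha ▸ D.sub_rr_mem hg x
  have hb' : b ∈ A := hb ▸ D.sub_rr_mem hg y
  have e1 : (g : V ≃ₗ[F] V) x = (D.rr g x : V) + a := by rw [ha]; abel
  have e2 : (g : V ≃ₗ[F] V) y = (D.rr g y : V) + b := by rw [hb]; abel
  rw [e1, e2] at h1
  simp only [map_add, LinearMap.add_apply] at h1
  rw [D.orth_right hb' (D.W_le (D.rr g x).2), D.orth_left ha' (D.W_le (D.rr g y).2), D.ti a ha' b hb'] at h1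
  simpa using h1

theorem rr_mul {g h : IsomGroup B} (hg : g ∈ fixer B A) (hh : h ∈ fixer B A) (w : W) :
    D.rr (g * h) w = D.rr g (D.rr h w) := by
  rw [rr_apply, rr_apply]
  obtain ⟨a, ha⟩ : ∃ a, a = (h : V ≃ₗ[F] V) w - (D.rr h w : V) := ⟨_, rfl⟩
  have ha' : a ∈ A := ha ▸ D.sub_rr_mem hh w
  have e1 : (h : V ≃ₗ[F] V) w = (D.rr h w : V) + a := by rw [ha]; abel
  have e2 : ((g * h : IsomGroup B) : V ≃ₗ[F] V) (w : V) = (g : V ≃ₗ[F] V) ((h : V ≃ₗ[F] V) w) := rfl
  rw [e2, e1, map_add, hg a ha', map_add, D.pi_A ha', add_zero]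

theorem rr_one (w : W) : D.rr (1 : IsomGroup B) w = w := by
  rw [rr_apply]
  exact D.pi_W' w

/-- The induced isometry of `W`. -/
noncomputable def rhoFun (g : fixer B A) : W ≃ₗ[F] W :=
  LinearEquiv.ofLinear (D.rr g.1) (D.rr g⁻¹.1)
    (by
      ext w
      have := D.rr_mul g.2 (g⁻¹).2 w
      rw [LinearMap.comp_apply, ← this]
      have e : (g : IsomGroup B) * ((g⁻¹ : fixer B A) : IsomGroup B) = 1 := by simp
      rw [e, D.rr_one]
      rfl)
    (by
      ext w
      have := D.rr_mul (g⁻¹).2 g.2 w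
      rw [LinearMap.comp_apply, ← this]
      have e : ((g⁻¹ : fixer B A) : IsomGroup B) * (g : IsomGroup B) = 1 := by simp
      rw [e, D.rr_one]
      rfl)

theorem rhoFun_apply (g : fixer B A) (w : W) : D.rhoFun g w = D.rr g.1 w := rfl

/-- The homomorphism to the isometry group of `W`. -/
noncomputable def rho : fixer B A →* IsomGroup (B.restrict W) :=
  MonoidHom.mk' (fun g => ⟨D.rhoFun g, fun x y => D.rr_form g.2 x y⟩) (by
    intro g h
    apply Subtype.ext
    apply LinearEquiv.ext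
    intro w
    exact D.rr_mul g.2 h.2 w)

theorem rho_apply (g : fixer B A) (w : W) : ((D.rho g : IsomGroup (B.restrict W)) : W ≃ₗ[F] W) w = D.pi ((g.1 : V ≃ₗ[F] V) w) := rfl

/-- Surjectivity, by Witt's lemma. -/
theorem rho_surj : Function.Surjective D.rho := by
  intro l
  let O := B.orthogonal A
  let pO : O →ₗ[F] W := D.pi ∘ₗ O.subtype
  let L' : O →ₗ[F] V := O.subtype - W.subtype ∘ₗ pO + W.subtype ∘ₗ ((l : W ≃ₗ[F] W) : W →ₗ[F] W) ∘ₗ pO
  have hL'a : ∀ x : O, L' x = ((x : V) - (D.pi x : V)) + ((l : W ≃ₗ[F] W) (D.pi x) : V) := fun x => rfl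
  have hmem : ∀ x : O, (x : V) - (D.pi x : V) ∈ A := fun x => D.sub_pi_mem x.2
  have hinj : Function.Injective L' := by
    rw [injective_iff_map_eq_zero]
    intro x hx
    rw [hL'a] at hx
    have h1 : ((l : W ≃ₗ[F] W) (D.pi x) : V) ∈ A ⊓ W := by
      refine ⟨?_, Subtype.mem _⟩
      have h0 := A.neg_mem (hmem x)
      have h0' : -((x : V) - (D.pi x : V)) = ((l : W ≃ₗ[F] W) (D.pi x) : V) :=
        (eq_neg_of_add_eq_zero_right hx).symm
      rw [h0'] at h0
      exact h0
    rw [D.inf, Submodule.mem_bot] at h1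
    have h2 : (l : W ≃ₗ[F] W) (D.pi x) = 0 := Subtype.ext h1
    have h3 : D.pi x = 0 := by simpa using h2
    rw [h3] at hx
    simp only [map_zero, ZeroMemClass.coe_zero, sub_zero, add_zero] at hx
    exact Subtype.ext hx
  have hform : ∀ x y : O, B (L' x) (L' y) = B (O.subtype x) (O.subtype y) := by
    intro x y
    change B (L' x) (L' y) = B (x : V) (y : V)
    rw [hL'a, hL'a]
    obtain ⟨a, ha⟩ : ∃ a, a = (x : V) - (D.pi x : V) := ⟨_, rfl⟩
    obtain ⟨b, hb⟩ : ∃ b, b = (y : V) - (D.pi y : V) := ⟨_, rfl⟩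
    have ha' : a ∈ A := ha ▸ hmem x
    have hb' : b ∈ A := hb ▸ hmem y
    rw [← ha, ← hb]
    have ex : (x : V) = a + (D.pi x : V) := by rw [ha]; abel
    have ey : (y : V) = b + (D.pi y : V) := by rw [hb]; abel
    conv_rhs => rw [ex, ey]
    simp only [map_add, LinearMap.add_apply]
    have h1 := l.2 (D.pi x) (D.pi y)
    have h1' : B ((l : W ≃ₗ[F] W) (D.pi x) : V) ((l : W ≃ₗ[F] W) (D.pi y) : V) = B (D.pi x : V) (D.pi y : V) := h1
    rw [h1', D.ti a ha' b hb', D.orth_left ha' (D.W_le (Subtype.mem _)), D.orth_left ha' (D.W_le (Subtype.mem _)),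
      D.orth_right hb' (D.W_le (Subtype.mem _)), D.orth_right hb' (D.W_le (Subtype.mem _))]
  obtain ⟨g, hg, hgL⟩ := witt_of_injective B D.hB D.hA O.subtype L' O.injective_subtype hinj hform
  have hfix : (⟨g, hg⟩ : IsomGroup B) ∈ fixer B A := by
    intro a ha
    have h1 := hgL ⟨a, D.A_le ha⟩
    rw [hL'a] at h1
    have h2 : D.pi a = 0 := D.pi_A ha
    change g a = _
    simp only [Submodule.subtype_apply] at h1
    rw [h1, h2]
    simp
  refine ⟨⟨⟨g, hg⟩, hfix⟩, Subtype.ext ?_⟩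
  apply LinearEquiv.ext
  intro w
  rw [rho_apply]
  have h1 := hgL ⟨w, D.W_le w.2⟩
  rw [hL'a] at h1
  have h2 : D.pi (w : V) = w := D.pi_W' w
  simp only [Submodule.subtype_apply] at h1
  change D.pi (g w) = _
  rw [h1, h2]
  simp only [sub_self, zero_add]
  exact D.pi_W' _

/-- The elements of the kernel have `p`-power order. -/
theorem ker_isPE {p : ℕ} [hp : Fact p.Prime] [CharP F p] (g : fixer B A) (hg : g ∈ D.rho.ker) :
    IsPE p g := by
  have hg1 : ∀ w : W, (g.1 : V ≃ₗ[F] V) w - (w : V) ∈ A := by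
    intro w
    have h1 := D.sub_rr_mem g.2 w
    have h2 : D.rr g.1 w = w := by
      have := LinearEquiv.congr_fun (congrArg Subtype.val (MonoidHom.mem_ker.mp hg)) w
      exact this
    rwa [h2] at h1
  set N : Module.End F V := (((g.1 : V ≃ₗ[F] V) : V →ₗ[F] V) : Module.End F V) - 1 with hN
  have hNx : ∀ x, N x = (g.1 : V ≃ₗ[F] V) x - x := fun x => rfl
  have h1 : ∀ x, N x ∈ B.orthogonal A := by
    intro x
    rw [LinearMap.BilinForm.mem_orthogonal_iff]
    intro a ha
    rw [hNx, map_sub]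
    have h2 := g.1.2 a x
    rw [g.2 a ha] at h2
    rw [h2, sub_self]
  have h2 : ∀ y ∈ B.orthogonal A, N y ∈ A := by
    intro y hy
    rw [← D.sup] at hy
    obtain ⟨a, ha, w, hw, rfl⟩ := Submodule.mem_sup.mp hy
    rw [map_add, hNx a, g.2 a ha, sub_self, zero_add]
    exact hg1 ⟨w, hw⟩
  have h3 : ∀ a ∈ A, N a = 0 := by
    intro a ha
    rw [hNx, g.2 a ha, sub_self]
  have hN3 : N ^ 3 = 0 := by
    ext x
    have : (N ^ 3) x = N (N (N x)) := by
      simp [pow_succ, Module.End.mul_apply]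
    rw [this, h3 _ (h2 _ (h1 x))]
    rfl
  obtain ⟨t, ht⟩ := isPE_of_nilp (p := p) (g.1 : V ≃ₗ[F] V) hN3
  refine ⟨t, ?_⟩
  apply Subtype.ext
  apply Subtype.ext
  exact ht

theorem inf_W {x : V} (ha : x ∈ A) (hw : x ∈ W) : x = 0 := by
  have : x ∈ A ⊓ W := ⟨ha, hw⟩
  rwa [D.inf, Submodule.mem_bot] at this

/-- The form on `W` is alternating. -/
theorem restrict_alt : (B.restrict W).IsAlt := fun x => D.hA x

/-- The form on `W` is nondegenerate. -/
theorem restrict_nondeg : (B.restrict W).Nondegenerate := by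
  have hr := D.hA.isRefl
  apply (LinearMap.BilinForm.restrict_nondegenerate_iff_isCompl_orthogonal hr).mpr
  rw [LinearMap.BilinForm.isCompl_orthogonal_iff_disjoint hr, Submodule.disjoint_def]
  intro x hx hx'
  have h1 : x ∈ B.orthogonal (B.orthogonal A) := by
    rw [LinearMap.BilinForm.mem_orthogonal_iff]
    intro y hy
    rw [← D.sup] at hy
    obtain ⟨a, ha, w, hw, rfl⟩ := Submodule.mem_sup.mp hy
    rw [map_add, LinearMap.add_apply, D.orth_left ha (D.W_le hx), zero_add]
    exact (LinearMap.BilinForm.mem_orthogonal_iff.mp hx') w hw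
  rw [LinearMap.BilinForm.orthogonal_orthogonal D.hB hr] at h1
  exact D.inf_W h1 hx

/-- The dimension of `W`. -/
theorem finrank_W {m k : ℕ} (hm : finrank F V = 2 * m) (hk : finrank F A = k) :
    finrank F W = 2 * (m - k) ∧ k ≤ m := by
  have h1 := Submodule.finrank_sup_add_finrank_inf_eq A W
  rw [D.sup, D.inf, finrank_bot, add_zero, LinearMap.BilinForm.finrank_orthogonal D.hB A, hm, hk] at h1
  have h2 : finrank F ↥(B.orthogonal A) ≤ finrank F V := Submodule.finrank_le _
  have h3 : k ≤ finrank F ↥(B.orthogonal A) := by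
    rw [← hk]
    exact Submodule.finrank_mono D.A_le
  rw [LinearMap.BilinForm.finrank_orthogonal D.hB A, hm, hk] at h3
  omega

end Dec

end Main

section Exists

variable {F : Type u} {V : Type v} [Field F] [AddCommGroup V] [Module F V] [FiniteDimensional F V]
variable {B : LinearMap.BilinForm F V} {A : Submodule F V}

/-- Decompositions exist. -/
theorem exists_dec (hA : B.IsAlt) (hB : B.Nondegenerate) (hti : ∀ u ∈ A, ∀ v ∈ A, B u v = 0) :
    ∃ W C : Submodule F V, Dec B A W C := by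
  have hle : A ≤ B.orthogonal A := by
    intro a ha
    rw [LinearMap.BilinForm.mem_orthogonal_iff]
    intro b hb
    exact hti b hb a ha
  -- a complement of `A` in `A^⊥`
  obtain ⟨W₀, hW₀⟩ := Submodule.exists_isCompl (A.comap (B.orthogonal A).subtype)
  let W := W₀.map (B.orthogonal A).subtype
  have hWle : W ≤ B.orthogonal A := by
    rintro _ ⟨x, -, rfl⟩
    exact x.2
  have hinf : A ⊓ W = ⊥ := by
    rw [eq_bot_iff]
    rintro x ⟨hx, ⟨y, hy, rfl⟩⟩
    have h1 : y ∈ (A.comap (B.orthogonal A).subtype) ⊓ W₀ := ⟨hx, hy⟩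
    rw [hW₀.inf_eq_bot, Submodule.mem_bot] at h1
    rw [h1]
    simp
  have hsup : A ⊔ W = B.orthogonal A := by
    apply le_antisymm (sup_le hle hWle)
    intro x hx
    have h1 : (⟨x, hx⟩ : B.orthogonal A) ∈ (A.comap (B.orthogonal A).subtype) ⊔ W₀ := by
      rw [hW₀.sup_eq_top]
      trivial
    obtain ⟨a, ha, w, hw, e⟩ := Submodule.mem_sup.mp h1
    have e' : (a : V) + (w : V) = x := congrArg Subtype.val e
    rw [← e']
    exact Submodule.add_mem_sup ha ⟨w, hw, rfl⟩
  obtain ⟨C, hC⟩ := Submodule.exists_isCompl (B.orthogonal A)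
  refine ⟨W, C, hA, hB, hti, hinf, hsup, ?_⟩
  constructor
  · rw [Submodule.disjoint_def]
    intro x hxW hx
    obtain ⟨a, ha, c, hc, rfl⟩ := Submodule.mem_sup.mp hx
    have hc' : c ∈ B.orthogonal A := by
      have h1 : a + c ∈ B.orthogonal A := hWle hxW
      have h2 : c = (a + c) - a := by abel
      rw [h2]
      exact Submodule.sub_mem _ h1 (hle ha)
    have h3 : c ∈ (B.orthogonal A) ⊓ C := ⟨hc', hc⟩
    rw [hC.inf_eq_bot, Submodule.mem_bot] at h3
    subst h3
    have h4 : a ∈ A ⊓ W := ⟨ha, by simpa using hxW⟩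
    rw [hinf, Submodule.mem_bot] at h4
    simp [h4]
  · rw [codisjoint_iff, eq_top_iff, ← hC.sup_eq_top, ← hsup]
    rw [show W ⊔ (A ⊔ C) = A ⊔ W ⊔ C by
      rw [sup_comm A W, sup_assoc]]

end Exists

end Cfsg.Agent.Lib.Classical.Symp.UnipFix
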