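import Mathlib
import Cfsg.Agent.Lib.Classical.Symp.UnipFix

/-!
# Steinberg's count of elements of `p`-power order in the symplectic group

Over a field with `q` elements of characteristic `p`, a nondegenerate alternating form on a space of dimension `2m`
has exactly `q ^ (2 m ^ 2)` isometries of `p`-power order.  The proof sums Moebius numbers of isotropic subspaces fixed
pointwise by an element: this sum vanishes for an element of `p`-power order other than `1`.
-/

set_option autoImplicit false
set_option linter.unusedSectionVars false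

namespace Cfsg.Agent.Lib.Classical.Symp.UnipMain

open Module Finset
open Cfsg.Agent.Lib.Classical.Symp.AltForm Cfsg.Agent.Lib.Classical.Symp.Count
open Cfsg.Agent.Lib.Classical.Symp.SpGL Cfsg.Agent.Lib.Classical.Symp.IsoCount
open Cfsg.Agent.Lib.Classical.Symp.UnipNum Cfsg.Agent.Lib.Classical.Symp.UnipCone
open Cfsg.Agent.Lib.Classical.Symp.UnipFix
open scoped _root_.Classical

universe u v

section Basic

variable {F : Type u} {V : Type v} [Field F] [AddCommGroup V] [Module F V]
variable {B : LinearMap.BilinForm F V}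

/-- Totally isotropic subspaces. -/
def TIset (B : LinearMap.BilinForm F V) : Set (Submodule F V) := {A | ∀ u ∈ A, ∀ v ∈ A, B u v = 0}

theorem mem_TIset {A : Submodule F V} : A ∈ TIset B ↔ ∀ u ∈ A, ∀ v ∈ A, B u v = 0 := Iff.rfl

theorem bot_mem_TIset : (⊥ : Submodule F V) ∈ TIset B := by
  intro u hu v _
  rw [Submodule.mem_bot] at hu
  rw [hu, map_zero, LinearMap.zero_apply]

/-- Isotropic subspaces fixed pointwise. -/
def SS' (B : LinearMap.BilinForm F V) (g : IsomGroup B) : Set (Submodule F V) :=
  {A | A ∈ TIset B ∧ ∀ a ∈ A, (g : V ≃ₗ[F] V) a = a}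

variable {p : ℕ} [hp : Fact p.Prime] [CharP F p]

/-- The radical vector of an element of `p`-power order. -/
theorem exists_radical {g : IsomGroup B} (hg : IsPE p g) (hg1 : g ≠ 1) :
    ∃ w : V, w ≠ 0 ∧ (g : V ≃ₗ[F] V) w = w ∧ ∀ x, (g : V ≃ₗ[F] V) x = x → B w x = 0 := by
  have hg' : IsPE p (g : V ≃ₗ[F] V) := by
    obtain ⟨t, ht⟩ := hg
    exact ⟨t, by rw [← Subgroup.coe_pow, ht]; rfl⟩
  obtain ⟨n, hn⟩ := nilp_of_isPE (F := F) hg'
  set N : Module.End F V := (((g : V ≃ₗ[F] V) : V →ₗ[F] V) : Module.End F V) - 1 with hN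
  have hNx : ∀ x, N x = (g : V ≃ₗ[F] V) x - x := fun x => rfl
  have hN0 : N ≠ 0 := by
    intro h
    apply hg1
    apply Subtype.ext
    apply LinearEquiv.ext
    intro x
    have h1 : N x = 0 := by rw [h]; rfl
    rw [hNx, sub_eq_zero] at h1
    exact h1
  have hex : ∃ n, N ^ n = 0 := ⟨n, hn⟩
  have hn₀ := Nat.find_spec hex
  have hmin : ∀ j < Nat.find hex, N ^ j ≠ 0 := fun j hj => Nat.find_min hex hj
  obtain ⟨j, hj⟩ : ∃ j, Nat.find hex = j + 2 := by
    have h0 : Nat.find hex ≠ 0 := by
      intro h0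
      rw [h0, pow_zero] at hn₀
      apply hN0
      rw [← mul_one N, hn₀, mul_zero]
    have h1 : Nat.find hex ≠ 1 := by
      intro h1
      rw [h1, pow_one] at hn₀
      exact hN0 hn₀
    exact ⟨Nat.find hex - 2, by omega⟩
  rw [hj] at hn₀
  have h3 : N ^ (j + 1) ≠ 0 := hmin _ (by omega)
  obtain ⟨y, hy⟩ : ∃ y, (N ^ (j + 1)) y ≠ 0 := by
    by_contra hcon
    push Not at hcon
    exact h3 (LinearMap.ext hcon)
  have e1 : (N ^ (j + 1)) y = N ((N ^ j) y) := by
    rw [pow_succ', Module.End.mul_apply]
  have e2 : N ((N ^ (j + 1)) y) = 0 := by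
    have : (N ^ (j + 2)) y = 0 := by rw [hn₀]; rfl
    rw [pow_succ', Module.End.mul_apply] at this
    exact this
  refine ⟨(N ^ (j + 1)) y, hy, ?_, ?_⟩
  · rw [hNx, sub_eq_zero] at e2
    exact e2
  · intro x hx
    rw [e1, hNx, map_sub, LinearMap.sub_apply]
    have h4 := g.2 ((N ^ j) y) x
    rw [hx] at h4
    rw [h4, sub_self]

/-- The Moebius sum over the isotropic subspaces fixed pointwise vanishes. -/
theorem sum_SS'_eq_zero [Finite F] [FiniteDimensional F V] [Fintype (Submodule F V)] (hA : B.IsAlt)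
    {g : IsomGroup B} (hg : IsPE p g) (hg1 : g ≠ 1) :
    ∑ A ∈ univ.filter (fun A : Submodule F V => A ∈ SS' B g), mu (Nat.card F) (finrank F A) = 0 := by
  obtain ⟨w, hw0, hwg, hwx⟩ := exists_radical hg hg1
  apply cone_sum (SS' B g) hw0
  · rintro A ⟨h1, h2⟩ C hC
    exact ⟨fun u hu v hv => h1 u (hC hu) v (hC hv), fun a ha => h2 a (hC ha)⟩
  · rintro A ⟨h1, h2⟩
    refine ⟨?_, ?_⟩
    · intro x hx y hy
      obtain ⟨a, ha, c, hc, rfl⟩ := Submodule.mem_sup.mp hx
      obtain ⟨b, hb, d, hd, rfl⟩ := Submodule.mem_sup.mp hy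
      obtain ⟨s, rfl⟩ := Submodule.mem_span_singleton.mp hc
      obtain ⟨t, rfl⟩ := Submodule.mem_span_singleton.mp hd
      have e1 : B w b = 0 := hwx b (h2 b hb)
      have e2 : B a w = 0 := by
        rw [alt_swap hA, hwx a (h2 a ha), neg_zero]
      have e3 : B w w = 0 := hA w
      simp only [map_add, LinearMap.add_apply, map_smul, LinearMap.smul_apply, e1, e2, e3, h1 a ha b hb,
        smul_zero, add_zero]
    · intro x hx
      obtain ⟨a, ha, c, hc, rfl⟩ := Submodule.mem_sup.mp hx
      obtain ⟨s, rfl⟩ := Submodule.mem_span_singleton.mp hc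
      rw [map_add, map_smul, h2 a ha, hwg]

end Basic

section Count

variable {F : Type u} {V : Type v} [Field F] [Finite F] [AddCommGroup V] [Module F V] [FiniteDimensional F V]
variable {B : LinearMap.BilinForm F V}
variable {p : ℕ} [hp : Fact p.Prime] [CharP F p]

theorem finite_isomGroup : Finite (IsomGroup B) := by
  haveI : Finite V := Module.finite_of_finite F
  haveI : Finite (V ≃ₗ[F] V) := Finite.of_injective (fun g : V ≃ₗ[F] V => (g : V → V)) DFunLike.coe_injective
  infer_instance

theorem card_fixer_filter [Fintype (IsomGroup B)] (A : Submodule F V) :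
    ((univ.filter (fun g : IsomGroup B => IsPE p g)).filter
      (fun g : IsomGroup B => ∀ a ∈ A, (g : V ≃ₗ[F] V) a = a)).card = Nat.card {g : fixer B A // IsPE p g} := by
  rw [Finset.filter_filter, ← Fintype.card_subtype, ← Nat.card_eq_fintype_card]
  apply Nat.card_congr
  exact
    { toFun := fun g => ⟨⟨g.1, g.2.2⟩, by
        obtain ⟨t, ht⟩ := g.2.1
        exact ⟨t, Subtype.ext (by rw [Subgroup.coe_pow]; exact ht)⟩⟩
      invFun := fun g => ⟨g.1.1, by
        obtain ⟨t, ht⟩ := g.2
        exact ⟨t, by rw [← Subgroup.coe_pow, ht]; rfl⟩, g.1.2⟩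
      left_inv := fun g => rfl
      right_inv := fun g => rfl }

/-- The double count. -/
theorem double_count [Fintype (Submodule F V)] (hA : B.IsAlt) :
    ∑ A ∈ univ.filter (fun A : Submodule F V => A ∈ TIset B),
      mu (Nat.card F) (finrank F A) * (Nat.card {g : fixer B A // IsPE p g} : ℤ) =
    ∑ A ∈ univ.filter (fun A : Submodule F V => A ∈ TIset B), mu (Nat.card F) (finrank F A) := by
  haveI : Finite (IsomGroup B) := finite_isomGroup
  letI : Fintype (IsomGroup B) := Fintype.ofFinite _
  set P := univ.filter (fun g : IsomGroup B => IsPE p g) with hP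
  have h1 : ∑ g ∈ P, ∑ A ∈ univ.filter (fun A : Submodule F V => A ∈ SS' B g), mu (Nat.card F) (finrank F A) =
      ∑ A ∈ univ.filter (fun A : Submodule F V => A ∈ TIset B), mu (Nat.card F) (finrank F A) := by
    rw [Finset.sum_eq_single 1]
    · apply Finset.sum_congr _ (fun _ _ => rfl)
      ext A
      simp only [mem_filter, mem_univ, true_and]
      exact ⟨fun h => h.1, fun h => ⟨h, fun a _ => rfl⟩⟩
    · intro g hg hg1
      rw [hP, mem_filter] at hg
      exact sum_SS'_eq_zero hA hg.2 hg1
    · intro h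
      exfalso
      apply h
      rw [hP, mem_filter]
      exact ⟨mem_univ _, 0, by simp⟩
  have h2 : ∑ g ∈ P, ∑ A ∈ univ.filter (fun A : Submodule F V => A ∈ SS' B g), mu (Nat.card F) (finrank F A) =
      ∑ A ∈ univ.filter (fun A : Submodule F V => A ∈ TIset B),
        ∑ _g ∈ P.filter (fun g : IsomGroup B => ∀ a ∈ A, (g : V ≃ₗ[F] V) a = a), mu (Nat.card F) (finrank F A) := by
    apply Finset.sum_comm'
    intro g A
    simp only [mem_filter, mem_univ, true_and, SS', Set.mem_setOf_eq]
    tauto
  rw [← h1, h2]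
  apply Finset.sum_congr rfl
  intro A _
  rw [Finset.sum_const, nsmul_eq_mul, hP, card_fixer_filter, mul_comm]

/-- Orbit-stabiliser for frames. -/
theorem card_isom_eq (hA : B.IsAlt) (hB : B.Nondegenerate) {A : Submodule F V} (hti : A ∈ TIset B) {k : ℕ}
    (hk : finrank F A = k) :
    Nat.card (IsomGroup B) = Nat.card (IsoFrame B k) * Nat.card (fixer B A) := by
  let b := Module.finBasisOfFinrankEq F A hk
  let s₀ : Fin k → V := fun i => (b i : V)
  have hli : LinearIndependent F s₀ := b.linearIndependent.map' A.subtype A.ker_subtype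
  have hspan : Submodule.span F (Set.range s₀) = A := by
    apply Submodule.eq_of_le_of_finrank_eq
    · rw [Submodule.span_le]
      rintro _ ⟨i, rfl⟩
      exact (b i).2
    · rw [finrank_span_eq_card hli, Fintype.card_fin, hk]
  let φ : IsomGroup B → IsoFrame B k := fun g =>
    ⟨fun i => (g : V ≃ₗ[F] V) (s₀ i), hli.map' _ (LinearEquiv.ker _), fun i j => by
      rw [g.2]
      exact hti _ (b i).2 _ (b j).2⟩
  apply card_eq_mul_of_fibers (fixer B A) φ
  · intro s
    have hI : ∀ (t : Fin k → V) (c : Fin k → F), Fintype.linearCombination F t c ∈ Submodule.span F (Set.range t) := by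
      intro t c
      rw [← Fintype.range_linearCombination]
      exact ⟨c, rfl⟩
    obtain ⟨g, hg, hgL⟩ := witt_of_injective B hB hA (Fintype.linearCombination F s₀) (Fintype.linearCombination F s.1)
      (linearIndependent_iff_injective_fintypeLinearCombination.mp hli)
      (linearIndependent_iff_injective_fintypeLinearCombination.mp s.2.1)
      (fun c d => by
        rw [span_isotropic s.2.2 _ (hI _ c) _ (hI _ d)]
        have h1 := hI s₀ c
        have h2 := hI s₀ d
        rw [hspan] at h1 h2
        rw [hti _ h1 _ h2])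
    refine ⟨⟨g, hg⟩, Subtype.ext (funext fun i => ?_)⟩
    have h3 := hgL (Pi.single i 1)
    rw [Fintype.linearCombination_apply_single, Fintype.linearCombination_apply_single, one_smul, one_smul] at h3
    exact h3
  · intro g g'
    constructor
    · intro h a ha
      rw [← hspan] at ha
      induction ha using Submodule.span_induction with
      | mem x hx =>
        obtain ⟨i, rfl⟩ := hx
        have h1 := congrFun (congrArg Subtype.val h) i
        change (g : V ≃ₗ[F] V).symm ((g' : V ≃ₗ[F] V) (s₀ i)) = s₀ i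
        rw [LinearEquiv.symm_apply_eq]
        exact h1.symm
      | zero => exact map_zero _
      | add x y _ _ hx hy => rw [map_add, hx, hy]
      | smul c x _ hx => rw [map_smul, hx]
    · intro h
      apply Subtype.ext
      funext i
      have h1 : (g : V ≃ₗ[F] V).symm ((g' : V ≃ₗ[F] V) (s₀ i)) = s₀ i := h (s₀ i) (b i).2
      rw [LinearEquiv.symm_apply_eq] at h1
      exact h1.symm

theorem two_le_card : 2 ≤ Nat.card F := Finite.one_lt_card

/-- The number of elements of `p`-power order fixing `A` pointwise. -/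
theorem x_formula {m k : ℕ} (hA : B.IsAlt) (hB : B.Nondegenerate) (hV : finrank F V = 2 * m) {A W C : Submodule F V}
    (hti : A ∈ TIset B) (hk : finrank F A = k) (D : Dec B A W C)
    (IH : Nat.card {l : IsomGroup (B.restrict W) // IsPE p l} = Nat.card F ^ (2 * (m - k) ^ 2)) :
    Nat.card {g : fixer B A // IsPE p g} = Nat.card F ^ ee m k := by
  haveI : Finite (IsomGroup B) := finite_isomGroup
  haveI : Finite (IsomGroup (B.restrict W)) := finite_isomGroup
  have hW := D.finrank_W hV hk
  have h1 := card_pe_of_surj p D.rho D.rho_surj (fun g hg => D.ker_isPE g hg)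
  have h2 : Nat.card (fixer B A) = Nat.card (IsomGroup (B.restrict W)) * Nat.card D.rho.ker :=
    card_eq_mul_of_fibers D.rho.ker D.rho D.rho_surj (fun g g' => by rw [eq_comm, MonoidHom.eq_iff])
  have h3 := card_isom_eq hA hB hti hk
  have h4 := card_isomGroup (Nat.card F) rfl m V B hA hB hV
  have h5 := card_isomGroup (Nat.card F) rfl (m - k) W (B.restrict W) D.restrict_alt D.restrict_nondeg hW.1
  have h6 := card_isoFrame hA hB k
  rw [hV] at h6
  have h7 := parabolic_arith (q := Nat.card F) (m := m) (k := k) (A := Nat.card (fixer B A)) (G := 1) two_le_card hW.2 (by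
    rw [mul_one, ← h4, h3, h6, mul_comm])
  rw [mul_one, ← h5, h2, mul_comm (Nat.card F ^ _)] at h7
  have hpos : 0 < Nat.card (IsomGroup (B.restrict W)) := Nat.card_pos
  have h8 := Nat.eq_of_mul_eq_mul_left hpos h7
  rw [h1, h8, IH, ← pow_add]
  congr 1
  have e : (k + 1).choose 2 = k * (k + 1) / 2 := by
    rw [Nat.choose_two_right, Nat.add_sub_cancel, mul_comm]
  rw [ee, e]
  try ring

/-- The number of isotropic subspaces. -/
theorem card_isoSub {m k : ℕ} (hA : B.IsAlt) (hB : B.Nondegenerate) (hV : finrank F V = 2 * m) (hk : k ≤ m) :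
    (Nat.card (IsoSub B k) : ℤ) = NN (Nat.card F) m k := by
  have hq : 1 ≤ Nat.card F := by
    have := two_le_card (F := F)
    omega
  have h1 := card_isoFrame_eq_mul (B := B) k
  rw [card_isoFrame hA hB k, hV] at h1
  have e1 : ((∏ i : Fin k, (Nat.card F ^ k - Nat.card F ^ (i : ℕ)) : ℕ) : ℤ) = gl (Nat.card F) k := by
    rw [Fin.prod_univ_eq_prod_range (fun i => Nat.card F ^ k - Nat.card F ^ i) k, gl, Nat.cast_prod]
    apply Finset.prod_congr rfl
    intro i hi
    rw [Nat.cast_sub (Nat.pow_le_pow_right hq (le_of_lt (Finset.mem_range.mp hi)))]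
    push_cast
    try rfl
  have e2 : ((∏ i : Fin k, (Nat.card F ^ (2 * m - i) - Nat.card F ^ (i : ℕ)) : ℕ) : ℤ) = Fr (Nat.card F) m k := by
    rw [Fin.prod_univ_eq_prod_range (fun i => Nat.card F ^ (2 * m - i) - Nat.card F ^ i) k, Fr, Nat.cast_prod]
    apply Finset.prod_congr rfl
    intro i hi
    have hi' := Finset.mem_range.mp hi
    rw [Nat.cast_sub (Nat.pow_le_pow_right hq (by omega))]
    push_cast
    try rfl
  have h2 := congrArg (Nat.cast : ℕ → ℤ) h1
  rw [Nat.cast_mul, e1, e2, ← NN_mul_gl] at h2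
  exact mul_right_cancel₀ (gl_pos two_le_card k).ne' h2.symm

/-- Grouping the isotropic subspaces by dimension. -/
theorem sum_TI [Fintype (Submodule F V)] {m : ℕ} (hA : B.IsAlt) (hB : B.Nondegenerate) (hV : finrank F V = 2 * m)
    (f : ℕ → ℤ) :
    ∑ A ∈ univ.filter (fun A : Submodule F V => A ∈ TIset B), f (finrank F A) =
      ∑ k ∈ range (m + 1), NN (Nat.card F) m k * f k := by
  have hmaps : ∀ A ∈ univ.filter (fun A : Submodule F V => A ∈ TIset B), finrank F A ∈ range (m + 1) := by
    intro A hA'
    rw [mem_filter] at hA'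
    obtain ⟨W, C, D⟩ := exists_dec hA hB hA'.2
    have := (D.finrank_W hV rfl).2
    rw [mem_range]
    omega
  rw [← Finset.sum_fiberwise_of_maps_to hmaps]
  apply Finset.sum_congr rfl
  intro k hk
  have hk' : k ≤ m := by
    have := mem_range.mp hk
    omega
  rw [← card_isoSub hA hB hV hk', Finset.filter_filter]
  have h1 : ∀ A ∈ univ.filter (fun A : Submodule F V => A ∈ TIset B ∧ finrank F A = k), f (finrank F A) = f k := by
    intro A hA'
    rw [(mem_filter.mp hA').2.2]
  rw [Finset.sum_congr rfl h1, Finset.sum_const, nsmul_eq_mul]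
  congr 2
  rw [Nat.card_eq_fintype_card, Fintype.card_subtype]
  congr 1
  ext A
  simp only [mem_filter, mem_univ, true_and]
  exact ⟨fun h => ⟨h.2, h.1⟩, fun h => ⟨h.2, h.1⟩⟩

theorem fixer_bot_card : Nat.card {g : fixer B (⊥ : Submodule F V) // IsPE p g} = Nat.card {g : IsomGroup B // IsPE p g} := by
  apply Nat.card_congr
  exact
    { toFun := fun g => ⟨g.1.1, by
        obtain ⟨t, ht⟩ := g.2
        exact ⟨t, by rw [← Subgroup.coe_pow, ht]; rfl⟩⟩
      invFun := fun g => ⟨⟨g.1, fun a ha => by
          rw [Submodule.mem_bot] at ha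
          rw [ha, map_zero]⟩, by
        obtain ⟨t, ht⟩ := g.2
        exact ⟨t, Subtype.ext (by rw [Subgroup.coe_pow]; exact ht)⟩⟩
      left_inv := fun g => rfl
      right_inv := fun g => rfl }

/-- **Steinberg's count.** -/
theorem card_isPE_isom (F : Type u) [Field F] [Finite F] (p : ℕ) [hp : Fact p.Prime] [CharP F p] :
    ∀ (m : ℕ) (V : Type v) [AddCommGroup V] [Module F V] [FiniteDimensional F V]
      (B : LinearMap.BilinForm F V), B.IsAlt → B.Nondegenerate → finrank F V = 2 * m →
      Nat.card {g : IsomGroup B // IsPE p g} = Nat.card F ^ (2 * m ^ 2) := by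
  intro m
  induction m using Nat.strong_induction_on with
  | _ m ih =>
    intro V _ _ _ B hA hB hV
    haveI : Finite V := Module.finite_of_finite F
    haveI : Finite (Submodule F V) := inferInstance
    letI : Fintype (Submodule F V) := Fintype.ofFinite _
    have hx : ∀ A ∈ TIset B, A ≠ ⊥ → (Nat.card {g : fixer B A // IsPE p g} : ℤ) = (Nat.card F : ℤ) ^ ee m (finrank F A) := by
      intro A hti hne
      obtain ⟨W, C, D⟩ := exists_dec hA hB hti
      have hk1 : 1 ≤ finrank F A := Submodule.one_le_finrank_iff.mpr hne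
      have hW := D.finrank_W hV rfl
      have IH := ih (m - finrank F A) (by omega) W (B.restrict W) D.restrict_alt D.restrict_nondeg hW.1
      rw [x_formula hA hB hV hti rfl D IH]
      push_cast
      try rfl
    set cnt := Nat.card {g : IsomGroup B // IsPE p g} with hcnt
    have hdc := double_count (p := p) hA
    have hterm : ∀ A ∈ univ.filter (fun A : Submodule F V => A ∈ TIset B),
        mu (Nat.card F) (finrank F A) * (Nat.card {g : fixer B A // IsPE p g} : ℤ) =
          mu (Nat.card F) (finrank F A) * (Nat.card F : ℤ) ^ ee m (finrank F A) +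
            (if A = ⊥ then ((cnt : ℤ) - (Nat.card F : ℤ) ^ ee m 0) else 0) := by
      intro A hA'
      have hA'' := (mem_filter.mp hA').2
      by_cases hb : A = ⊥
      · subst hb
        rw [if_pos rfl, finrank_bot, mu_zero, fixer_bot_card]
        ring
      · rw [if_neg hb, hx A hA'' hb, add_zero]
    rw [Finset.sum_congr rfl hterm, Finset.sum_add_distrib, Finset.sum_ite_eq',
      if_pos (mem_filter.mpr ⟨mem_univ _, bot_mem_TIset⟩),
      sum_TI hA hB hV (fun k => mu (Nat.card F) k * (Nat.card F : ℤ) ^ ee m k),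
      sum_TI hA hB hV (fun k => mu (Nat.card F) k)] at hdc
    have h1 := SS_eq_TT (Nat.card F) m
    have h2 : SS (Nat.card F) m = ∑ k ∈ range (m + 1), NN (Nat.card F) m k * mu (Nat.card F) k := by
      rw [SS]
      exact Finset.sum_congr rfl (fun _ _ => mul_comm _ _)
    have h3 : TT (Nat.card F) m = ∑ k ∈ range (m + 1), NN (Nat.card F) m k * (mu (Nat.card F) k * (Nat.card F : ℤ) ^ ee m k) := by
      rw [TT]
      exact Finset.sum_congr rfl (fun _ _ => by ring)
    rw [← h2, ← h3, h1] at hdc
    have h4 : (cnt : ℤ) = (Nat.card F : ℤ) ^ ee m 0 := by linarith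
    rw [ee_zero] at h4
    exact_mod_cast h4

end Count

end Cfsg.Agent.Lib.Classical.Symp.UnipMain
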